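import Cfsg.Agent.SympGeo.RootPairs

/-! Maximality in the symplectic group of the stabiliser of a pair of complementary Lagrangians, odd
characteristic. -/

set_option autoImplicit false
set_option linter.unusedSectionVars false

namespace CfsgLib.SympGeo

open Matrix Module CfsgLib.TransvGL CfsgLib.AltFormTransv
open scoped MatrixGroups

variable {ι : Type} [Fintype ι] [DecidableEq ι] {F : Type*} [Field F]
variable {f : (ι → F) → (ι → F) → F} (hf : Cfsg.Geo.IsSymplecticForm f)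

/-- A pair of complementary Lagrangians. -/
structure LagrPair (U W : Submodule F (ι → F)) : Prop where
  left : (sform hf).orthogonal U = U
  right : (sform hf).orthogonal W = W
  top : U ⊔ W = ⊤
  inf : ∀ x ∈ U, x ∈ W → x = 0
  dim : 3 ≤ finrank F U

variable {hf}
variable {U W : Submodule F (ι → F)}

lemma LagrPair.finrank_eq (h : LagrPair hf U W) : finrank F W = finrank F U ∧ 2 * finrank F U = Fintype.card ι := by
  have h1 := finrank_sperp_add hf U
  have h2 := finrank_sperp_add hf W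
  rw [h.left] at h1
  rw [h.right] at h2
  omega

lemma LagrPair.symm (h : LagrPair hf U W) : LagrPair hf W U :=
  ⟨h.right, h.left, by rw [sup_comm, h.top], fun x hx hx' => h.inf x hx' hx, by
    rw [h.finrank_eq.1]; exact h.dim⟩

lemma LagrPair.left_zero (h : LagrPair hf U W) {x y : ι → F} (hx : x ∈ U) (hy : y ∈ U) : sform hf x y = 0 := by
  rw [← h.left] at hy
  exact hy x hx

lemma LagrPair.right_zero (h : LagrPair hf U W) {x y : ι → F} (hx : x ∈ W) (hy : y ∈ W) : sform hf x y = 0 :=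
  h.symm.left_zero hx hy

lemma LagrPair.exists_dual (h : LagrPair hf U W) {v p q : ι → F} (hv : v ∈ U) (hp : p ∈ U) (hq : q ∈ U)
    (hn : v ∉ Submodule.span F {p} ⊔ Submodule.span F {q}) :
    ∃ d ∈ W, sform hf p d = 0 ∧ sform hf q d = 0 ∧ sform hf v d = 1 := by
  obtain ⟨d, hdW, hdP, hd⟩ := exists_sform_one hf (S := W)
    (T := Submodule.span F {p} ⊔ Submodule.span F {q}) (v := v) (by
      rw [h.right]
      intro hm
      obtain ⟨t, ht, w, hw, e⟩ := Submodule.mem_sup.1 hm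
      have htU : t ∈ U :=
        (sup_le ((Submodule.span_singleton_le_iff_mem _ _).2 hp) ((Submodule.span_singleton_le_iff_mem _ _).2 hq) : _ ≤ U) ht
      have hw0 : w = 0 := h.inf w (by rw [eq_sub_of_add_eq' e]; exact U.sub_mem hv htU) hw
      rw [hw0, add_zero] at e
      exact hn (e ▸ ht))
  obtain ⟨h1, h2⟩ := (mem_sperp_pair hf).1 hdP
  exact ⟨d, hdW, h1, h2, hd⟩

omit [DecidableEq ι] in
lemma exists_avoid {T P : Submodule F (ι → F)} (h : finrank F P < finrank F T) : ∃ c ∈ T, c ∉ P := by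
  by_contra hc
  push Not at hc
  have := Submodule.finrank_mono (show T ≤ P from hc)
  omega

omit [DecidableEq ι] in
lemma finrank_span_one_le (y : ι → F) : finrank F (Submodule.span F ({y} : Set (ι → F))) ≤ 1 :=
  (finrank_span_le_card _).trans (by simp)

omit [DecidableEq ι] in
lemma finrank_span_two_le (u v : ι → F) :
    finrank F ↥(Submodule.span F {u} ⊔ Submodule.span F {v}) ≤ 2 := by
  have h3 := Submodule.finrank_add_le_finrank_add_finrank (Submodule.span F {u}) (Submodule.span F {v})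
  have := finrank_span_one_le (F := F) u
  have := finrank_span_one_le (F := F) v
  omega

omit [DecidableEq ι] in
lemma not_mem_span_pair {a b c : ι → F} (hab : a ∉ Submodule.span F {b})
    (hc : c ∉ Submodule.span F {a} ⊔ Submodule.span F {b}) :
    a ∉ Submodule.span F {b} ⊔ Submodule.span F {c} := by
  intro hm
  obtain ⟨_, hp, _, hq, e⟩ := Submodule.mem_sup.1 hm
  obtain ⟨r, rfl⟩ := Submodule.mem_span_singleton.1 hp
  obtain ⟨k, rfl⟩ := Submodule.mem_span_singleton.1 hq
  by_cases hk : k = 0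
  · rw [hk, zero_smul, add_zero] at e
    exact hab (Submodule.mem_span_singleton.2 ⟨r, e⟩)
  · refine hc ((Submodule.smul_mem_iff _ hk).1 ?_)
    rw [eq_sub_of_add_eq' e]
    exact Submodule.sub_mem _ (Submodule.mem_sup_left (Submodule.mem_span_singleton_self _))
      (Submodule.mem_sup_right (Submodule.smul_mem _ r (Submodule.mem_span_singleton_self _)))

section OverGroup

variable {H : Subgroup (GL ι F)}
variable (hH : ∀ g ∈ H, ∀ x y, f ((g : Matrix ι ι F) *ᵥ x) ((g : Matrix ι ι F) *ᵥ y) = f x y)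
variable (hp : ∀ u ∈ U, ∀ w ∈ W, sform hf u w = 0 → biT hf u w ∈ H)
include hH hp

/-- A root element attached to a vector of `U` gives a transvection. -/
lemma transv_of_pure_root (h : LagrPair hf U W) {b aU aW : ι → F} (hb : b ∈ U) (hb0 : b ≠ 0) (haU : aU ∈ U)
    (haW : aW ∈ W) (hab : sform hf b (aU + aW) = 0) (hmem : biT hf b (aU + aW) ∈ H)
    (hind : aU ∉ Submodule.span F {b}) : ∃ v, v ≠ 0 ∧ sympT hf v 2 ∈ H := by
  obtain ⟨w, hwW, hbw, -, hw⟩ := h.exists_dual (v := aU) (p := b) (q := b) haU hb hb (by rwa [sup_idem])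
  have hg := hp b hb w hwW hbw
  have hbaW : sform hf b aW = 0 := by rwa [map_add, h.left_zero hb haU, zero_add] at hab
  have hgb : (biT hf b w : Matrix ι ι F) *ᵥ b = b := by
    rw [biT_mulVec hf hbw, sform_self hf, hbw, zero_smul, zero_smul, add_zero, add_zero]
  have hga : (biT hf b w : Matrix ι ι F) *ᵥ (aU + aW) = aU + aW + (1 : F) • b := by
    rw [biT_mulVec hf hbw, sform_comm_zero hf hab, map_add, LinearMap.add_apply, hw, h.right_zero haW hwW]
    simp
  have h1 := H.mul_mem (H.mul_mem hg hmem) (H.inv_mem hg)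
  rw [conj_biT hf (hH _ hg) hab, hgb, hga, biT_self_smul hf hab, mul_one] at h1
  exact ⟨b, hb0, (H.mul_mem_cancel_left hmem).1 h1⟩

/-- A root element with two-dimensional projection gives a transvection. -/
lemma transv_of_root (h : LagrPair hf U W)
    (hr : ∀ e ∈ U, ∀ φ ∈ W, sform hf e φ = 1 → ∃ g ∈ H, ∀ x,
      (g : Matrix ι ι F) *ᵥ x = x - (2 : F) • (sform hf x φ • e - sform hf x e • φ))
    (h2 : (2 : F) ≠ 0) {aU aW bU bW : ι → F} (haU : aU ∈ U) (haW : aW ∈ W) (hbU : bU ∈ U)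
    (hbW : bW ∈ W) (hab : sform hf (bU + bW) (aU + aW) = 0) (hmem : biT hf (bU + bW) (aU + aW) ∈ H)
    (hb0 : bU ≠ 0) (hind : aU ∉ Submodule.span F {bU}) : ∃ v, v ≠ 0 ∧ sympT hf v 2 ∈ H := by
  have ha0 : aU ≠ 0 := fun h0 => hind (h0 ▸ zero_mem _)
  have core : ∀ {aU aW bU bW : ι → F}, aU ∈ U → aW ∈ W → bU ∈ U → bW ∈ W →
      sform hf (bU + bW) (aU + aW) = 0 → biT hf (bU + bW) (aU + aW) ∈ H → bU ≠ 0 →
      (∃ φ ∈ W, sform hf bU φ = 0 ∧ sform hf aU φ = 1 ∧ φ ∉ Submodule.span F {aW} ⊔ Submodule.span F {bW}) →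
      ∃ v, v ≠ 0 ∧ sympT hf v 2 ∈ H := by
    rintro aU aW bU bW haU haW hbU hbW hab hmem hb0 ⟨φ, hφ, hbφ, haφ, hφN⟩
    obtain ⟨d, hdU, had, hbd, hφd⟩ := h.symm.exists_dual hφ haW hbW hφN
    have hed : sform hf (-d) φ = 1 := by
      rw [map_neg, LinearMap.neg_apply, sform_skew hf, hφd, neg_neg]
    obtain ⟨g, hg, hgx⟩ := hr (-d) (U.neg_mem hdU) φ hφ hed
    have had' : sform hf (aU + aW) (-d) = 0 := by
      rw [map_neg, map_add, LinearMap.add_apply, h.left_zero haU hdU, had, add_zero, neg_zero]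
    have hbd' : sform hf (bU + bW) (-d) = 0 := by
      rw [map_neg, map_add, LinearMap.add_apply, h.left_zero hbU hdU, hbd, add_zero, neg_zero]
    have hgb : (g : Matrix ι ι F) *ᵥ (bU + bW) = bU + bW := by
      rw [hgx, hbd', map_add, LinearMap.add_apply, hbφ, h.right_zero hbW hφ]
      simp
    have hga : (g : Matrix ι ι F) *ᵥ (aU + aW) = aU + aW + (2 : F) • d := by
      rw [hgx, had', map_add, LinearMap.add_apply, haφ, h.right_zero haW hφ]
      simp
    have h1 := H.mul_mem (H.mul_mem hg hmem) (H.inv_mem hg)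
    rw [conj_biT hf (hH _ hg) hab, hgb, hga] at h1
    have hbd2 : sform hf (bU + bW) ((2 : F) • d) = 0 := by
      rw [map_neg, neg_eq_zero] at hbd'
      rw [map_smul, hbd', smul_zero]
    have h2d : sform hf ((2 : F) • d) (aU + aW) = 0 := sform_comm_zero hf (by
      rw [map_neg, neg_eq_zero] at had'
      rw [map_smul, had', smul_zero])
    have h3 : biT hf (bU + bW) (aU + aW) * biT hf (bU + bW) ((2 : F) • d) ∈ H := by
      rw [biT_mul hf hab hbd2, h2d]
      have : sympT hf (bU + bW) 0 = 1 := ext_mulVec fun x => by rw [sympT_mulVec]; simp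
      rwa [this, mul_one]
    rw [H.mul_mem_cancel_left hmem, biT_comm hf hbd2] at h3
    have hd0 : d ≠ 0 := fun h0 => by simp [h0] at hed
    refine transv_of_pure_root hH hp h (U.smul_mem _ hdU) (smul_ne_zero h2 hd0) hbU hbW
      (sform_comm_zero hf hbd2) h3 fun hm => ?_
    obtain ⟨r, hr'⟩ := Submodule.mem_span_singleton.1 hm
    rw [← hr', map_smul, map_smul, LinearMap.smul_apply, LinearMap.smul_apply, smul_eq_mul, smul_eq_mul,
      show sform hf d φ = -1 by rw [sform_skew hf, hφd]] at hbφ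
    have hr0 : r = 0 := (mul_eq_zero.1 hbφ).resolve_right (by simpa using h2)
    exact hb0 (by rw [← hr', hr0, zero_smul])
  by_cases hA : ∃ φ ∈ W, sform hf bU φ = 0 ∧ sform hf aU φ = 1 ∧ φ ∉ Submodule.span F {aW} ⊔ Submodule.span F {bW}
  · exact core haU haW hbU hbW hab hmem hb0 hA
  by_cases hB : ∃ φ ∈ W, sform hf aU φ = 0 ∧ sform hf bU φ = 1 ∧ φ ∉ Submodule.span F {bW} ⊔ Submodule.span F {aW}
  · exact core hbU hbW haU haW (sform_comm_zero hf hab) (by rwa [← biT_comm hf hab]) ha0 hB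
  exfalso
  push Not at hA hB
  set B := Submodule.span F {aW} ⊔ Submodule.span F {bW} with hBd
  obtain ⟨φ₀, hφ₀, hbφ₀, -, haφ₀⟩ := h.exists_dual haU hbU hbU (by rwa [sup_idem])
  obtain ⟨ψ₀, hψ₀, haψ₀, -, hbψ₀⟩ := h.exists_dual hbU haU haU (by
    rw [sup_idem]
    intro hm
    obtain ⟨r, hr'⟩ := Submodule.mem_span_singleton.1 hm
    have hr0 : r ≠ 0 := fun h0 => hb0 (by rw [← hr', h0, zero_smul])
    exact hind (Submodule.mem_span_singleton.2 ⟨r⁻¹, by rw [← hr', inv_smul_smul₀ hr0]⟩))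
  have hφB := hA φ₀ hφ₀ hbφ₀ haφ₀
  have hψB : ψ₀ ∈ B := by rw [hBd, sup_comm]; exact hB ψ₀ hψ₀ haψ₀ hbψ₀
  have hWB : W ≤ B := fun w hw => by
    set y := w - sform hf aU w • φ₀ - sform hf bU w • ψ₀ with hy
    have hyW : y ∈ W := W.sub_mem (W.sub_mem hw (W.smul_mem _ hφ₀)) (W.smul_mem _ hψ₀)
    have hsum : φ₀ + y ∈ B := hA _ (W.add_mem hφ₀ hyW) (by simp [hy, map_add, map_sub, hbφ₀, hbψ₀, -sform_apply])
      (by simp [hy, map_add, map_sub, haφ₀, haψ₀, -sform_apply])
    have hyB : y ∈ B := by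
      have := Submodule.sub_mem _ hsum hφB
      rwa [add_sub_cancel_left] at this
    rw [show w = y + sform hf aU w • φ₀ + sform hf bU w • ψ₀ by rw [hy]; abel]
    exact B.add_mem (B.add_mem hyB (B.smul_mem _ hφB)) (B.smul_mem _ hψB)
  have h1 := Submodule.finrank_mono hWB
  have h3 := finrank_span_two_le (F := F) aW bW
  have h4 := h.finrank_eq.1
  have h5 := h.dim
  rw [← hBd] at h3
  omega

/-- A transvection at a vector with non-zero `U`-part gives all transvections at vectors of `U`. -/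
lemma transv_half_spread (h2F : (2 : F) ≠ 0) (h : LagrPair hf U W) {vU vW : ι → F} (hvU : vU ∈ U) (hvW : vW ∈ W)
    (hv0 : vU ≠ 0) {k : F} (hk : k ≠ 0) (hv : sympT hf (vU + vW) k ∈ H) :
    ∀ u ∈ U, ∀ t : F, sympT hf u t ∈ H := by
  obtain ⟨c, ⟨hcU, hcP⟩, hcN⟩ := exists_avoid
    (T := U ⊓ (sform hf).orthogonal (Submodule.span F {vW})) (P := Submodule.span F {vU}) (by
      have h1 := Submodule.finrank_sup_add_finrank_inf_eq U ((sform hf).orthogonal (Submodule.span F {vW}))
      have h2 := finrank_sperp_add hf (Submodule.span F {vW})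
      have h3 := finrank_span_one_le (F := F) vW
      have h4 := finrank_span_one_le (F := F) vU
      have h5 := Submodule.finrank_le (U ⊔ (sform hf).orthogonal (Submodule.span F {vW}))
      rw [finrank_fintype_fun_eq_card] at h5
      have := h.dim
      omega)
  have hvWc : sform hf vW c = 0 := hcP vW (Submodule.mem_span_singleton_self vW)
  have hc0 : c ≠ 0 := fun h0 => hcN (h0 ▸ zero_mem _)
  have hvUc : vU ∉ Submodule.span F {c} := by
    intro hm
    obtain ⟨r, hr⟩ := Submodule.mem_span_singleton.1 hm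
    have hr0 : r ≠ 0 := by rintro rfl; exact hv0 (by rw [← hr, zero_smul])
    exact hcN (Submodule.mem_span_singleton.2 ⟨r⁻¹, by rw [← hr, inv_smul_smul₀ hr0]⟩)
  obtain ⟨d, hdW, hcd, -, hvd⟩ := h.exists_dual hvU hcU hcU (by rwa [sup_idem])
  have hg := hp c hcU d hdW hcd
  have hgv : (biT hf c d : Matrix ι ι F) *ᵥ (vU + vW) = vU + vW + c := by
    rw [biT_mulVec hf hcd, map_add, LinearMap.add_apply, LinearMap.add_apply, h.left_zero hvU hcU, hvWc, hvd,
      h.right_zero hvW hdW]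
    simp
  have hgc : (biT hf c d : Matrix ι ι F) *ᵥ c = c := by
    rw [biT_mulVec hf hcd, sform_self hf, hcd]; simp
  have hginv : ((biT hf c d)⁻¹ : GL ι F).val *ᵥ (vU + vW) = vU + vW - c := by
    conv_lhs => rw [show vU + vW = (biT hf c d : Matrix ι ι F) *ᵥ (vU + vW - c) by
      rw [Matrix.mulVec_sub, hgv, hgc, add_sub_cancel_right]]
    rw [inv_mulVec_mulVec]
  have hplus := H.mul_mem (H.mul_mem hg hv) (H.inv_mem hg)
  rw [conj_sympT hf (hH _ hg), hgv] at hplus
  have hminus := H.mul_mem (H.mul_mem (H.inv_mem hg) hv) (H.inv_mem (H.inv_mem hg))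
  rw [conj_sympT hf (hH _ (H.inv_mem hg)), hginv] at hminus
  have hm2 : sympT hf (vU + vW) (-2 * k) ∈ H := by
    rw [show -2 * k = -(k + k) by ring, ← sympT_inv hf, ← sympT_mul hf]
    exact H.inv_mem (H.mul_mem hv hv)
  have hvc : sform hf (vU + vW) c = 0 := by
    rw [map_add, LinearMap.add_apply, h.left_zero hvU hcU, hvWc, add_zero]
  have hc : sympT hf c (2 * k) ∈ H := by
    rw [← sympT_polar hf _ _ hvc]
    exact H.mul_mem (H.mul_mem hplus hminus) hm2
  -- transport inside `U`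
  have move : ∀ p q : ι → F, p ∈ U → q ∈ U → q ∉ Submodule.span F {p} → sympT hf p (2 * k) ∈ H →
      p ≠ 0 → sympT hf q (2 * k) ∈ H := by
    intro p q hpU hqU hq hmem hp0
    have hnp : p ∉ Submodule.span F {q - p} ⊔ Submodule.span F {q - p} := by
      rw [sup_idem]
      intro hm
      obtain ⟨r, hr⟩ := Submodule.mem_span_singleton.1 hm
      have hr0 : r ≠ 0 := by rintro rfl; exact hp0 (by rw [← hr, zero_smul])
      refine hq ((Submodule.smul_mem_iff _ hr0).1 ?_)
      rw [show r • q = p + r • p by rw [← add_left_inj (-(r • p)), add_neg_cancel_right, ← sub_eq_add_neg, ← smul_sub, hr]]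
      exact Submodule.add_mem _ (Submodule.mem_span_singleton_self _) (Submodule.smul_mem _ r (Submodule.mem_span_singleton_self _))
    obtain ⟨d, hdW, hqd, -, hpd⟩ := h.exists_dual hpU (U.sub_mem hqU hpU) (U.sub_mem hqU hpU) hnp
    have hg := hp (q - p) (U.sub_mem hqU hpU) d hdW hqd
    have hgp : (biT hf (q - p) d : Matrix ι ι F) *ᵥ p = q := by
      rw [biT_mulVec hf hqd, hpd, h.left_zero hpU (U.sub_mem hqU hpU)]
      simp
    have h1 := H.mul_mem (H.mul_mem hg hmem) (H.inv_mem hg)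
    rwa [conj_sympT hf (hH _ hg), hgp] at h1
  have hall : ∀ u ∈ U, sympT hf u (2 * k) ∈ H := by
    intro u hu
    by_cases hu0 : u = 0
    · rw [show sympT hf u (2 * k) = 1 from ext_mulVec fun x => by rw [sympT_mulVec, hu0]; simp]
      exact H.one_mem
    by_cases huc : u ∈ Submodule.span F {c}
    · obtain ⟨e, heU, heN⟩ := exists_avoid (T := U) (P := Submodule.span F {c}) (by
        have := finrank_span_one_le (F := F) c
        have := h.dim
        omega)
      have he0 : e ≠ 0 := fun h0 => heN (h0 ▸ zero_mem _)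
      refine move e u heU hu (fun hm => ?_) (move c e hcU heU heN hc hc0) he0
      obtain ⟨r, hr⟩ := Submodule.mem_span_singleton.1 hm
      have hr0 : r ≠ 0 := by rintro rfl; exact hu0 (by rw [← hr, zero_smul])
      exact heN ((Submodule.smul_mem_iff _ hr0).1 (hr.symm ▸ huc))
    · exact move c u hcU hu huc hc hc0
  intro u hu t
  have h2k : 2 * k ≠ 0 := mul_ne_zero h2F hk
  set s := t / (2 * k) with hs
  have h1 := hall (((s + 1) / 2) • u) (U.smul_mem _ hu)
  have h2 := hall (((s - 1) / 2) • u) (U.smul_mem _ hu)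
  rw [sympT_smul hf] at h1 h2
  have h3 := H.mul_mem h1 (H.inv_mem h2)
  rw [sympT_inv hf, sympT_mul hf] at h3
  rwa [show 2 * k * ((s + 1) / 2) ^ 2 + -(2 * k * ((s - 1) / 2) ^ 2) = t by
    rw [hs]; field_simp; ring] at h3

end OverGroup

/-- An isometry exchanging the two members of a Lagrangian pair. -/
lemma LagrPair.exists_swap (h : LagrPair hf U W) : ∃ s : GL ι F,
    (∀ x y, f ((s : Matrix ι ι F) *ᵥ x) ((s : Matrix ι ι F) *ᵥ y) = f x y) ∧
    (∀ x ∈ U, (s : Matrix ι ι F) *ᵥ x ∈ W) ∧ (∀ x ∈ W, (s : Matrix ι ι F) *ᵥ x ∈ U) := by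
  obtain ⟨n, b⟩ : ∃ n, Nonempty (Basis (Fin n) F U) := ⟨_, ⟨Module.finBasis F U⟩⟩
  obtain ⟨b⟩ := b
  set φ : W →ₗ[F] Module.Dual F U :=
    { toFun := fun w => (sform hf).flip (w : ι → F) ∘ₗ U.subtype
      map_add' := fun w w' => by ext; simp
      map_smul' := fun c w => by ext; simp } with hφ
  have hφa : ∀ w u, φ w u = sform hf (u : ι → F) w := fun w u => rfl
  have hinj : Function.Injective φ := by
    rw [← LinearMap.ker_eq_bot, Submodule.eq_bot_iff]
    intro w hw
    refine Subtype.ext (h.inf _ ?_ w.2)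
    rw [← h.left]
    intro u hu
    exact (hφa w ⟨u, hu⟩).symm.trans (LinearMap.congr_fun (LinearMap.mem_ker.1 hw) ⟨u, hu⟩)
  obtain ⟨hfr, -⟩ := h.finrank_eq
  set φe : W ≃ₗ[F] Module.Dual F U := LinearEquiv.ofInjectiveOfFinrankEq φ hinj
    (by rw [Subspace.dual_finrank_eq]; exact hfr) with hφe
  set e : U ≃ₗ[F] W := b.toDualEquiv.trans φe.symm with he
  have hbil : ∀ u u' : U, sform hf (u : ι → F) (e u' : ι → F) = b.toDual u' u := by
    intro u u'
    have : φ (e u') = b.toDual u' := by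
      show φe (e u') = _
      rw [he, LinearEquiv.trans_apply, LinearEquiv.apply_symm_apply, Module.Basis.toDualEquiv_apply]
    rw [← hφa, this]
  have hcomm : ∀ u u' : U, b.toDual u u' = b.toDual u' u := by
    intro u u'
    have := congrArg (fun l : U →ₗ[F] U →ₗ[F] F => l u u')
      (show b.toDual = b.toDual.flip from b.ext fun i => b.ext fun j => by
        rw [LinearMap.flip_apply, Module.Basis.toDual_apply, Module.Basis.toDual_apply]
        exact if_congr eq_comm rfl rfl)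
    simpa using this
  have hc : IsCompl U W := ⟨Submodule.disjoint_def.2 h.inf, codisjoint_iff.2 h.top⟩
  set pq := U.prodEquivOfIsCompl W hc with hpq
  set E : (ι → F) ≃ₗ[F] (ι → F) := pq.symm.trans ((e.prodCongr (e.symm.trans (LinearEquiv.neg F))).trans
    ((LinearEquiv.prodComm F W U).trans pq)) with hE
  have hEa : ∀ (u : U) (w : W), E ((u : ι → F) + w) = (e u : ι → F) - (e.symm w : ι → F) := by
    intro u w
    have h1 : pq.symm ((u : ι → F) + w) = (u, w) := by
      rw [LinearEquiv.symm_apply_eq]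
      simp [hpq]
    rw [hE]
    rw [LinearEquiv.trans_apply, LinearEquiv.trans_apply, LinearEquiv.trans_apply, h1, hpq]
    simp only [LinearEquiv.prodCongr_apply, LinearEquiv.prodComm_apply, Prod.swap_prod_mk, LinearEquiv.trans_apply,
      LinearEquiv.neg_apply, Submodule.coe_prodEquivOfIsCompl', Submodule.coe_neg]
    abel
  refine ⟨ofEquiv E, ?_, ?_, ?_⟩
  · intro x y
    obtain ⟨xu, hxu, xw, hxw, rfl⟩ := Submodule.mem_sup.1 (h.top ▸ Submodule.mem_top : x ∈ U ⊔ W)
    obtain ⟨yu, hyu, yw, hyw, rfl⟩ := Submodule.mem_sup.1 (h.top ▸ Submodule.mem_top : y ∈ U ⊔ W)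
    rw [ofEquiv_mulVec, ofEquiv_mulVec, hEa ⟨xu, hxu⟩ ⟨xw, hxw⟩, hEa ⟨yu, hyu⟩ ⟨yw, hyw⟩, ← sform_apply hf,
      ← sform_apply hf]
    simp only [map_sub, map_add, LinearMap.sub_apply, LinearMap.add_apply,
      h.right_zero (e ⟨xu, hxu⟩).2 (e ⟨yu, hyu⟩).2, h.left_zero (e.symm ⟨xw, hxw⟩).2 (e.symm ⟨yw, hyw⟩).2,
      h.left_zero hxu hyu, h.right_zero hxw hyw]
    have k1 : sform hf (e ⟨xu, hxu⟩ : ι → F) (e.symm ⟨yw, hyw⟩ : ι → F) = - sform hf xu yw := by
      rw [sform_skew hf, hbil, hcomm, ← hbil, LinearEquiv.apply_symm_apply]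
    have k2 : sform hf (e.symm ⟨xw, hxw⟩ : ι → F) (e ⟨yu, hyu⟩ : ι → F) = - sform hf xw yu := by
      rw [hbil, hcomm, ← hbil, LinearEquiv.apply_symm_apply, sform_skew hf]
    rw [k1, k2]
    ring
  · intro x hx
    rw [ofEquiv_mulVec]
    have := hEa ⟨x, hx⟩ 0
    rw [map_zero] at this
    simp only [ZeroMemClass.coe_zero, add_zero, sub_zero] at this
    rw [this]
    exact (e ⟨x, hx⟩).2
  · intro x hx
    rw [ofEquiv_mulVec]
    have := hEa 0 ⟨x, hx⟩
    rw [map_zero] at this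
    simp only [ZeroMemClass.coe_zero, zero_add, zero_sub] at this
    rw [this]
    exact U.neg_mem (e.symm ⟨x, hx⟩).2

/-- The stabiliser of a Lagrangian pair is a maximal subgroup of the symplectic group in odd characteristic. -/
theorem lagrPair_isMaximal (h2F : (2 : F) ≠ 0) (h : LagrPair hf U W) (G P : Subgroup (GL ι F))
    (hG : ∀ g, g ∈ G ↔ ∀ x y, f ((g : Matrix ι ι F) *ᵥ x) ((g : Matrix ι ι F) *ᵥ y) = f x y)
    (hP : ∀ g, g ∈ P ↔ g ∈ G ∧
      ((∀ x ∈ U, (g : Matrix ι ι F) *ᵥ x ∈ U) ∧ (∀ x ∈ W, (g : Matrix ι ι F) *ᵥ x ∈ W) ∨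
       (∀ x ∈ U, (g : Matrix ι ι F) *ᵥ x ∈ W) ∧ (∀ x ∈ W, (g : Matrix ι ι F) *ᵥ x ∈ U))) :
    Cfsg.Geo.IsMaximalIn G P := by
  obtain ⟨hWd, hcard⟩ := h.finrank_eq
  have hd := h.dim
  have hsplit : ∀ v : ι → F, ∃ p ∈ U, ∃ q ∈ W, p + q = v := fun v =>
    Submodule.mem_sup.1 (h.top ▸ Submodule.mem_top)
  have hPUW : ∀ u ∈ U, ∀ w ∈ W, sform hf u w = 0 → biT hf u w ∈ P := by
    intro u hu w hw huw
    refine (hP _).2 ⟨(hG _).2 (biT_preserves hf u w), Or.inl ⟨fun x hx => ?_, fun x hx => ?_⟩⟩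
    · rw [biT_mulVec hf huw, h.left_zero hx hu, zero_smul, add_zero]
      exact U.add_mem hx (U.smul_mem _ hu)
    · rw [biT_mulVec hf huw, h.right_zero hx hw, zero_smul, add_zero]
      exact W.add_mem hx (W.smul_mem _ hw)
  refine ⟨lt_of_le_not_ge (fun g hg => ((hP g).1 hg).1) fun hle => ?_, fun M hPM hMG => ?_⟩
  · obtain ⟨u, huU, hu0⟩ := Submodule.exists_mem_ne_zero_of_ne_bot (p := U) (by
      intro h0; rw [h0, finrank_bot] at hd; omega)
    obtain ⟨x, hxW, -, -, hux⟩ := h.exists_dual (v := u) (p := 0) (q := 0) huU U.zero_mem U.zero_mem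
      (by simpa using hu0)
    obtain ⟨-, hfix⟩ := (hP _).1 (hle ((hG _).2 (sympT_preserves hf u 1)))
    rcases hfix with ⟨-, h1⟩ | ⟨h1, -⟩
    · have h2 := W.sub_mem (h1 x hxW) hxW
      rw [sympT_mulVec, add_sub_cancel_left] at h2
      have hxu : f x u = -1 := by rw [← sform_apply hf, sform_skew hf, hux]
      rw [hxu, one_mul, neg_smul, one_smul] at h2
      exact hu0 (h.inf u huU (by simpa using W.neg_mem h2))
    · have h2 := h1 u huU
      rw [sympT_mulVec, hf.alternating, mul_zero, zero_smul, add_zero] at h2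
      exact hu0 (h.inf u huU h2)
  by_cases hMP : M ≤ P
  · exact Or.inl (le_antisymm hMP hPM)
  refine Or.inr (le_antisymm hMG ?_)
  have hMI : ∀ g ∈ M, ∀ x y, f ((g : Matrix ι ι F) *ᵥ x) ((g : Matrix ι ι F) *ᵥ y) = f x y :=
    fun g hg => (hG g).1 (hMG hg)
  have hUW : ∀ u ∈ U, ∀ w ∈ W, sform hf u w = 0 → biT hf u w ∈ M := fun u hu w hw h' => hPM (hPUW u hu w hw h')
  have hWU : ∀ w ∈ W, ∀ u ∈ U, sform hf w u = 0 → biT hf w u ∈ M := fun w hw u hu h' => by
    rw [biT_comm hf h']; exact hUW u hu w hw (sform_comm_zero hf h')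
  have hrUW : ∀ e ∈ U, ∀ φ ∈ W, sform hf e φ = 1 → ∃ r ∈ M, ∀ x,
      (r : Matrix ι ι F) *ᵥ x = x - (2 : F) • (sform hf x φ • e - sform hf x e • φ) := fun e he φ hφ h1 => by
    set l : (ι → F) →ₗ[F] (ι → F) := LinearMap.id -
      (2 : F) • (((sform hf).flip φ).smulRight e - ((sform hf).flip e).smulRight φ) with hl
    have hla : ∀ x, l x = x - (2 : F) • (sform hf x φ • e - sform hf x e • φ) := fun x => rfl
    have h1' : sform hf φ e = -1 := by rw [sform_skew hf, h1]
    have hinv : ∀ x, l (l x) = x := fun x => by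
      simp only [hla, map_sub, map_smul, LinearMap.sub_apply, LinearMap.smul_apply, smul_eq_mul, sform_self hf, h1, h1']
      match_scalars <;> ring
    refine ⟨ofEquiv (LinearEquiv.ofInvolutive l hinv), hPM ((hP _).2 ⟨(hG _).2 fun x y => ?_,
      Or.inl ⟨fun x hx => ?_, fun x hx => ?_⟩⟩), fun x => ofEquiv_mulVec _ x⟩ <;>
      rw [ofEquiv_mulVec]
    · rw [ofEquiv_mulVec]
      change f (l x) (l y) = f x y
      simp only [hla, ← sform_apply hf, map_sub, map_smul, LinearMap.sub_apply, LinearMap.smul_apply, smul_eq_mul,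
        sform_self hf, h1, h1', sform_skew hf φ y, sform_skew hf e y]
      ring
    · change l x ∈ U
      rw [hla, h.left_zero hx he, zero_smul, sub_zero]
      exact U.sub_mem hx (U.smul_mem _ (U.smul_mem _ he))
    · change l x ∈ W
      rw [hla, h.right_zero hx hφ, zero_smul, zero_sub]
      exact W.sub_mem hx (W.smul_mem _ (W.neg_mem (W.smul_mem _ hφ)))
  have hrWU : ∀ e ∈ W, ∀ φ ∈ U, sform hf e φ = 1 → ∃ r ∈ M, ∀ x,
      (r : Matrix ι ι F) *ᵥ x = x - (2 : F) • (sform hf x φ • e - sform hf x e • φ) := fun e he φ hφ h1 => by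
    obtain ⟨r, hrM, hrx⟩ := hrUW φ hφ (-e) (W.neg_mem he) (by rw [map_neg, sform_skew hf, h1, neg_neg])
    refine ⟨r, hrM, fun x => ?_⟩
    rw [hrx, map_neg]
    module
  obtain ⟨g, hgM, hgP⟩ := SetLike.not_le_iff_exists.1 hMP
  have hgI := hMI g hgM
  have hsrc : ∃ v, v ≠ 0 ∧ sympT hf v 2 ∈ M := by
    by_contra hnone
    push Not at hnone
    have hno : ¬ ∃ v, v ≠ 0 ∧ sympT hf v 2 ∈ M := fun ⟨v, hv, hv'⟩ => hnone v hv hv'
    have hhalf : ∀ X Y : Submodule F (ι → F), LagrPair hf X Y →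
        (∀ x ∈ X, ∀ y ∈ Y, sform hf x y = 0 → biT hf x y ∈ M) →
        ∀ x ∈ X, (g : Matrix ι ι F) *ᵥ x ∈ U ∨ (g : Matrix ι ι F) *ᵥ x ∈ W := by
      intro X Y hXY hmem x hx
      obtain ⟨p, hp, q, hq, hpq⟩ := hsplit ((g : Matrix ι ι F) *ᵥ x)
      by_contra hc
      push Not at hc
      have hp0 : p ≠ 0 := by rintro rfl; rw [zero_add] at hpq; exact hc.2 (hpq ▸ hq)
      have hq0 : q ≠ 0 := by rintro rfl; rw [add_zero] at hpq; exact hc.1 (hpq ▸ hp)
      have hle : (Submodule.span F {x} ⊔ (Y ⊓ (sform hf).orthogonal (Submodule.span F {x}))).map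
          (Matrix.toLin' (g : Matrix ι ι F)) ≤ Submodule.span F {p} ⊔ Submodule.span F {q} := by
        rw [Submodule.map_sup, Submodule.map_span, Set.image_singleton, Matrix.toLin'_apply, ← hpq]
        refine sup_le ((Submodule.span_singleton_le_iff_mem _ _).2 (Submodule.add_mem_sup
          (Submodule.mem_span_singleton_self _) (Submodule.mem_span_singleton_self _))) ?_
        rintro _ ⟨y, ⟨hyY, hyx⟩, rfl⟩
        have hxy : sform hf x y = 0 := hyx x (Submodule.mem_span_singleton_self x)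
        rw [Matrix.toLin'_apply]
        obtain ⟨p', hp', q', hq', hpq'⟩ := hsplit ((g : Matrix ι ι F) *ᵥ y)
        have h1 := M.mul_mem (M.mul_mem hgM (hmem x hx y hyY hxy)) (M.inv_mem hgM)
        rw [conj_biT hf hgI hxy, ← hpq, ← hpq'] at h1
        have h0 : sform hf (p + q) (p' + q') = 0 := by rw [hpq, hpq']; exact (hgI x y).trans hxy
        rw [← hpq']
        refine Submodule.add_mem_sup ?_ ?_
        · by_contra hind
          exact hno (transv_of_root hMI hUW h hrUW h2F hp' hq' hp hq h0 h1 hp0 hind)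
        · by_contra hind
          rw [add_comm p q, add_comm p' q'] at h0 h1
          exact hno (transv_of_root hMI hWU h.symm hrWU h2F hq' hp' hq hp h0 h1 hq0 hind)
      have h1 := Submodule.finrank_mono hle
      rw [(Submodule.equivMapOfInjective _ (fun a b hab => by
          have := congrArg (((g⁻¹ : GL ι F) : Matrix ι ι F) *ᵥ ·) hab
          simpa [Matrix.toLin'_apply, inv_mulVec_mulVec] using this) _).finrank_eq.symm] at h1
      have h2 := finrank_span_two_le (F := F) p q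
      have h3 := Submodule.finrank_sup_add_finrank_inf_eq Y ((sform hf).orthogonal (Submodule.span F {x}))
      have h4 := finrank_sperp_add hf (Submodule.span F {x})
      have h5 := finrank_span_one_le (F := F) x
      have h6 := Submodule.finrank_le (Y ⊔ (sform hf).orthogonal (Submodule.span F {x}))
      rw [finrank_fintype_fun_eq_card] at h6
      have := hXY.symm.dim
      have hx0 : x ≠ 0 := fun hz => hp0 (h.inf p hp (by
        rw [hz, Matrix.mulVec_zero] at hpq
        rw [eq_neg_of_add_eq_zero_left hpq]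
        exact W.neg_mem hq))
      have hbot : Submodule.span F {x} ⊓ (Y ⊓ (sform hf).orthogonal (Submodule.span F {x})) = ⊥ :=
        eq_bot_iff.2 fun z hz => (Submodule.mem_bot F).2 (hXY.inf z
          ((Submodule.span_singleton_le_iff_mem _ _).2 hx hz.1) hz.2.1)
      have h7 := Submodule.finrank_sup_add_finrank_inf_eq (Submodule.span F {x})
        (Y ⊓ (sform hf).orthogonal (Submodule.span F {x}))
      rw [hbot, finrank_bot, finrank_span_singleton hx0] at h7
      omega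
    have hwhole : ∀ X : Submodule F (ι → F), (∀ x ∈ X, (g : Matrix ι ι F) *ᵥ x ∈ U ∨ (g : Matrix ι ι F) *ᵥ x ∈ W) →
        (∀ x ∈ X, (g : Matrix ι ι F) *ᵥ x ∈ U) ∨ (∀ x ∈ X, (g : Matrix ι ι F) *ᵥ x ∈ W) := by
      intro X hX
      by_contra hc
      push Not at hc
      obtain ⟨⟨x, hx, hxU⟩, ⟨y, hy, hyW⟩⟩ := hc
      have hxW := (hX x hx).resolve_left hxU
      have hyU := (hX y hy).resolve_right hyW
      rcases hX (x + y) (X.add_mem hx hy) with h' | h' <;> rw [Matrix.mulVec_add] at h'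
      · exact hxU (by simpa using U.sub_mem h' hyU)
      · exact hyW (by simpa using W.sub_mem h' hxW)
    have hboth : ∀ X : Submodule F (ι → F), finrank F X < Fintype.card ι →
        ¬ ((∀ x ∈ U, (g : Matrix ι ι F) *ᵥ x ∈ X) ∧ (∀ x ∈ W, (g : Matrix ι ι F) *ᵥ x ∈ X)) := by
      rintro X hlt ⟨h1, h2⟩
      have : (⊤ : Submodule F (ι → F)) ≤ X := fun v _ => by
        obtain ⟨p, hp, q, hq, hpq⟩ := hsplit (((g⁻¹ : GL ι F) : Matrix ι ι F) *ᵥ v)
        rw [← mulVec_inv_mulVec g v, ← hpq, Matrix.mulVec_add]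
        exact X.add_mem (h1 p hp) (h2 q hq)
      have := Submodule.finrank_mono this
      rw [finrank_top, finrank_fintype_fun_eq_card] at this
      omega
    refine hgP ((hP g).2 ⟨hMG hgM, ?_⟩)
    rcases hwhole U (hhalf U W h hUW) with h1 | h1 <;> rcases hwhole W (hhalf W U h.symm hWU) with h2 | h2
    · exact absurd ⟨h1, h2⟩ (hboth U (by omega))
    · exact Or.inl ⟨h1, h2⟩
    · exact Or.inr ⟨h1, h2⟩
    · exact absurd ⟨h1, h2⟩ (hboth W (by omega))
  obtain ⟨s, hsI, hsU, hsW⟩ := h.exists_swap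
  have hsM : s ∈ M := hPM ((hP s).2 ⟨(hG s).2 hsI, Or.inr ⟨hsU, hsW⟩⟩)
  have transport : ∀ X Y : Submodule F (ι → F), (∀ y ∈ Y, (s : Matrix ι ι F) *ᵥ y ∈ X) →
      (∀ x ∈ X, ∀ t : F, sympT hf x t ∈ M) → ∀ y ∈ Y, ∀ t : F, sympT hf y t ∈ M := by
    intro X Y hYX hX y hy t
    have h1 := M.mul_mem (M.mul_mem (M.inv_mem hsM) (hX _ (hYX y hy) t)) (M.inv_mem (M.inv_mem hsM))
    rwa [conj_sympT hf (hMI _ (M.inv_mem hsM)), inv_mulVec_mulVec] at h1
  obtain ⟨v, hv0, hv⟩ := hsrc
  obtain ⟨p, hp, q, hq, rfl⟩ := hsplit v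
  obtain ⟨hUall, hWall⟩ : (∀ x ∈ U, ∀ t : F, sympT hf x t ∈ M) ∧ (∀ x ∈ W, ∀ t : F, sympT hf x t ∈ M) := by
    by_cases hp0 : p = 0
    · have hq0 : q ≠ 0 := by rintro rfl; exact hv0 (by rw [hp0, add_zero])
      have := transv_half_spread hMI hWU h2F h.symm hq hp hq0 h2F (by rwa [add_comm q p])
      exact ⟨transport W U hsU this, this⟩
    · have := transv_half_spread hMI hUW h2F h hp hq hp0 h2F hv
      exact ⟨this, transport U W hsW this⟩
  have hne : ∀ p ∈ U, ∀ q ∈ W, sform hf q p ≠ 0 → ∀ t : F, sympT hf (p + q) t ∈ M := by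
    intro p hp q hq hpq t
    have hg' := hUall p hp (sform hf q p)⁻¹
    have h1 := M.mul_mem (M.mul_mem hg' (hWall q hq t)) (M.inv_mem hg')
    rwa [conj_sympT hf (hMI _ hg'), tv_mulVec hf, inv_mul_cancel₀ hpq, one_smul, add_comm q p] at h1
  have hall : ∀ v t, sympT hf v t ∈ M := by
    intro v t
    obtain ⟨p, hp, q, hq, rfl⟩ := hsplit v
    by_cases hq0 : q = 0
    · rw [hq0, add_zero]; exact hUall p hp t
    by_cases hpq : sform hf q p = 0
    swap
    · exact hne p hp q hq hpq t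
    obtain ⟨u, huU, -, -, hqu⟩ := h.symm.exists_dual (v := q) (p := 0) (q := 0) hq W.zero_mem W.zero_mem
      (by simpa using hq0)
    have hg' := hUall u huU 1
    have h1 := M.mul_mem (M.mul_mem hg' (hne (p - u) (U.sub_mem hp huU) q hq (by
      rw [map_sub, hpq, hqu, zero_sub]; exact neg_ne_zero.2 one_ne_zero) t)) (M.inv_mem hg')
    rw [conj_sympT hf (hMI _ hg'), tv_mulVec hf, map_add, LinearMap.add_apply,
      h.left_zero (U.sub_mem hp huU) huU, hqu, zero_add, mul_one, one_smul] at h1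
    rwa [show p - u + q + u = p + q by abel] at h1
  exact fun x hx => mem_of_preserves hf M hall x ((hG x).1 hx)

end CfsgLib.SympGeo
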