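import Cfsg.Agent.SympGeo.RootPairs
import Cfsg.Agent.OrthGeo.UnitaryOverfield

/-! The normaliser in the symplectic group of a quadratic extension field with non-trivial adjoint (unitary
overfield) is maximal, odd characteristic. -/

set_option autoImplicit false
set_option linter.unusedSectionVars false

namespace CfsgLib.SympGeo

open Cfsg.Geo Module CfsgLib.TransvGL CfsgLib.AltFormTransv CfsgLib.OrthGeo
open scoped Matrix MatrixGroups

variable {ι : Type} [Fintype ι] [DecidableEq ι] {F : Type*} [Field F]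
variable {f : (ι → F) → (ι → F) → F}

/-- The quadratic form `x ↦ f(x, J x)` and the properties of `J` used below. -/
structure KSymp (hf : Cfsg.Geo.IsSymplecticForm f) (J : Matrix ι ι F) (δ : F) : Prop where
  sq : ∀ v, J *ᵥ (J *ᵥ v) = δ • v
  irr : ∀ t : F, t * t ≠ δ
  adj : ∀ x y, sform hf (J *ᵥ x) y = - sform hf x (J *ᵥ y)
  two : (2 : F) ≠ 0

/-- The quadratic form attached to `J`. -/
def qJform (f : (ι → F) → (ι → F) → F) (J : Matrix ι ι F) (x : ι → F) : F := f x (J *ᵥ x)

variable {hf : Cfsg.Geo.IsSymplecticForm f} {J : Matrix ι ι F} {δ : F}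
variable (hS : KSymp hf J δ)
include hS

lemma KSymp.polar_qJ (x y : ι → F) : QuadraticMap.polar (qJform f J) x y = 2 * sform hf x (J *ᵥ y) := by
  have h : sform hf y (J *ᵥ x) = sform hf x (J *ᵥ y) := by rw [sform_skew hf, hS.adj, neg_neg]
  simp only [QuadraticMap.polar, qJform, ← sform_apply hf, Matrix.mulVec_add, map_add, LinearMap.add_apply]
  linear_combination h

lemma KSymp.isNondeg : IsNondegenerateQuadraticForm (qJform f J) where
  smul c v := by
    simp only [qJform, ← sform_apply hf, Matrix.mulVec_smul, map_smul, LinearMap.smul_apply, smul_eq_mul]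
    ring
  polar_bilinear :=
    { add_left := fun x y v => by simp only [hS.polar_qJ, map_add, LinearMap.add_apply]; ring
      smul_left := fun c x v => by simp only [hS.polar_qJ, map_smul, LinearMap.smul_apply, smul_eq_mul]; ring
      add_right := fun v x y => by simp only [hS.polar_qJ, Matrix.mulVec_add, map_add]; ring
      smul_right := fun c v x => by simp only [hS.polar_qJ, Matrix.mulVec_smul, map_smul, smul_eq_mul]; ring }
  nondegenerate := fun v hv => by
    have hδ : δ ≠ 0 := fun h => hS.irr 0 (by rw [h, mul_zero])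
    have hJv : J *ᵥ v ≠ 0 := fun h => hv (by
      have := hS.sq v
      rw [h, Matrix.mulVec_zero, eq_comm, smul_eq_zero] at this
      exact this.resolve_left hδ)
    obtain ⟨⟨x, hx⟩, -⟩ := hf.nondegenerate (J *ᵥ v) hJv
    refine ⟨⟨x, by rw [hS.polar_qJ]; exact mul_ne_zero hS.two hx⟩, ⟨x, ?_⟩⟩
    rw [QuadraticMap.polar_comm, hS.polar_qJ]
    exact mul_ne_zero hS.two hx

lemma KSymp.bform_eq (x y : ι → F) : bform hS.isNondeg x y = 2 * sform hf x (J *ᵥ y) := by
  rw [bform_apply]; exact hS.polar_qJ x y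

lemma KSymp.kstr : KStr hS.isNondeg J 0 δ where
  sq v := by rw [hS.sq, zero_smul, zero_add]
  irr t := by rw [zero_mul, zero_add]; exact hS.irr t
  adj x y := by
    simp only [hS.bform_eq, hS.adj, hS.sq, map_smul, smul_eq_mul]
    ring
  qJ x := by
    simp only [qJform, ← sform_apply hf, hS.sq, map_smul, smul_eq_mul, hS.adj, Matrix.mulVec_smul]
    ring
  bJ x := by rw [hS.bform_eq, hS.sq, map_smul, sform_self hf]; simp

lemma KSymp.iso_iff (v : ι → F) : qJform f J v = 0 ↔ sform hf v (J *ᵥ v) = 0 := Iff.rfl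

lemma KSymp.sform_J_J (x y : ι → F) : sform hf (J *ᵥ x) (J *ᵥ y) = -δ * sform hf x y := by
  rw [hS.adj, hS.sq, map_smul, smul_eq_mul]; ring

lemma KSymp.sform_of_bform {x y : ι → F} (h1 : bform hS.isNondeg x y = 0) (h2 : bform hS.isNondeg (J *ᵥ x) y = 0) :
    sform hf y x = 0 ∧ sform hf y (J *ᵥ x) = 0 := by
  rw [hS.bform_eq, mul_eq_zero] at h1 h2
  have e1 := h1.resolve_left hS.two
  have e2 := h2.resolve_left hS.two
  rw [hS.sform_J_J, mul_eq_zero] at e2
  have hδ : -δ ≠ 0 := neg_ne_zero.2 fun h => hS.irr 0 (by rw [h, mul_zero])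
  refine ⟨sform_comm_zero hf (e2.resolve_left hδ), ?_⟩
  rw [sform_skew hf, hS.adj, neg_neg, e1]

omit hS in
/-- The root element of an isotropic `K`-line. -/
noncomputable def kT (hf : Cfsg.Geo.IsSymplecticForm f) (J : Matrix ι ι F) (δ : F) (u : ι → F) (r : F) : GL ι F :=
  sympT hf (J *ᵥ u) r * sympT hf u (-(r * δ))

lemma KSymp.kT_mulVec {u : ι → F} (hu : qJform f J u = 0) (r : F) (x : ι → F) :
    (kT hf J δ u r : Matrix ι ι F) *ᵥ x =
      x + (r * sform hf x (J *ᵥ u)) • (J *ᵥ u) - (r * δ * sform hf x u) • u := by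
  rw [kT, Units.val_mul, ← Matrix.mulVec_mulVec, tv_mulVec hf, tv_mulVec hf]
  simp only [map_add, map_smul, LinearMap.add_apply, LinearMap.smul_apply, smul_eq_mul, (hS.iso_iff u).1 hu]
  module

omit hS in
lemma kT_preserves (u : ι → F) (r : F) (x y : ι → F) :
    f ((kT hf J δ u r : Matrix ι ι F) *ᵥ x) ((kT hf J δ u r : Matrix ι ι F) *ᵥ y) = f x y := by
  rw [kT, Units.val_mul]
  simp only [← Matrix.mulVec_mulVec, sympT_preserves hf]

lemma KSymp.kT_commute {u : ι → F} (hu : qJform f J u = 0) (r : F) :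
    (kT hf J δ u r : Matrix ι ι F) * J = J * (kT hf J δ u r : Matrix ι ι F) := by
  refine Matrix.ext_of_mulVec_single fun i => ?_
  generalize (Pi.single i 1 : ι → F) = x
  rw [← Matrix.mulVec_mulVec, ← Matrix.mulVec_mulVec, hS.kT_mulVec hu, hS.kT_mulVec hu]
  simp only [hS.sform_J_J, hS.adj x u, Matrix.mulVec_add, Matrix.mulVec_sub, Matrix.mulVec_smul, hS.sq]
  module

variable [Finite F] (hn : 10 ≤ Fintype.card ι) {H : Subgroup (GL ι F)}
variable (hH : ∀ g ∈ H, ∀ x y, f ((g : Matrix ι ι F) *ᵥ x) ((g : Matrix ι ι F) *ᵥ y) = f x y)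
variable (hline : ∀ v, qJform f J v = 0 → ∀ r : F, kT hf J δ v r ∈ H)
include hn hH hline

/-- The key polarisation: a pair of root elements translating `b` by `J s` and fixing `a`. -/
lemma polar_step {a b s u : ι → F} (hs : qJform f J s = 0) (hu : qJform f J u = 0)
    (hus1 : sform hf s u = 0) (hus2 : sform hf s (J *ᵥ u) = 0)
    (hau1 : sform hf a u = 0) (hau2 : sform hf a (J *ᵥ u) = 0) (has1 : sform hf a s = 0)
    (has2 : sform hf a (J *ᵥ s) = 0) (hbu : sform hf b u = 0) (hbu' : sform hf b (J *ᵥ u) = 1)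
    (hbs : sform hf b s = 0) (hbs' : sform hf b (J *ᵥ s) = 0) (c c' : F)
    (h : sympT hf b c * sympT hf a c' ∈ H) : sympT hf (J *ᵥ s) (2 * c) ∈ H := by
  have hus : qJform f J (u + s) = 0 := by
    have h1 : sform hf u (J *ᵥ s) = 0 := by rw [sform_skew hf, hS.adj, hus2]; ring
    simp only [qJform, ← sform_apply hf, Matrix.mulVec_add, map_add, LinearMap.add_apply,
      (hS.iso_iff u).1 hu, (hS.iso_iff s).1 hs, hus2, h1]
    ring
  set g := kT hf J δ (u + s) 1 * kT hf J δ u (-1) with hg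
  have hgH : g ∈ H := H.mul_mem (hline _ hus 1) (hline u hu (-1))
  have hga : (g : Matrix ι ι F) *ᵥ a = a := by
    rw [hg, Units.val_mul, ← Matrix.mulVec_mulVec, hS.kT_mulVec hu, hau1, hau2]
    simp only [mul_zero, zero_smul, add_zero, sub_zero]
    rw [hS.kT_mulVec hus]
    simp [Matrix.mulVec_add, map_add, hau1, hau2, has1, has2, -sform_apply]
  have hz1 : sform hf (J *ᵥ u) (J *ᵥ s) = 0 := by rw [hS.sform_J_J, sform_comm_zero hf hus1, mul_zero]
  have hgb : (g : Matrix ι ι F) *ᵥ b = b + J *ᵥ s := by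
    rw [hg, Units.val_mul, ← Matrix.mulVec_mulVec, hS.kT_mulVec hu, hbu, hbu', hS.kT_mulVec hus]
    simp only [Matrix.mulVec_add, map_add, map_sub, map_smul, LinearMap.add_apply, LinearMap.sub_apply,
      LinearMap.smul_apply, smul_eq_mul, hbu, hbu', hbs, hbs', hS.sform_J_J, hS.adj u u, hS.adj u s,
      sform_self hf, (hS.iso_iff u).1 hu, sform_comm_zero hf hus1, hz1,
      show sform hf u (J *ᵥ s) = 0 by rw [sform_skew hf, hS.adj, hus2]; ring]
    module
  have hgs : (g : Matrix ι ι F) *ᵥ (J *ᵥ s) = J *ᵥ s := by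
    rw [hg, Units.val_mul, ← Matrix.mulVec_mulVec, hS.kT_mulVec hu, hS.kT_mulVec hus]
    simp only [Matrix.mulVec_add, map_add, map_sub, map_smul, LinearMap.add_apply, LinearMap.sub_apply,
      LinearMap.smul_apply, smul_eq_mul, hS.sform_J_J, hS.adj s u, hS.adj s s, hus1, hus2, sform_self hf,
      (hS.iso_iff s).1 hs]
    module
  have hinv : ((g⁻¹ : GL ι F) : Matrix ι ι F) *ᵥ b = b - J *ᵥ s := by
    conv_lhs => rw [show b = (g : Matrix ι ι F) *ᵥ (b - J *ᵥ s) by rw [Matrix.mulVec_sub, hgb, hgs, add_sub_cancel_right]]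
    rw [inv_mulVec_mulVec]
  have hinva : ((g⁻¹ : GL ι F) : Matrix ι ι F) *ᵥ a = a := by
    conv_lhs => rw [← hga]
    rw [inv_mulVec_mulVec]
  have conj : ∀ k ∈ H, sympT hf ((k : Matrix ι ι F) *ᵥ b) c * sympT hf ((k : Matrix ι ι F) *ᵥ a) c' ∈ H := by
    intro k hk
    have := H.mul_mem (H.mul_mem hk h) (H.inv_mem hk)
    rwa [show k * (sympT hf b c * sympT hf a c') * k⁻¹ = (k * sympT hf b c * k⁻¹) * (k * sympT hf a c' * k⁻¹) by group,
      conj_sympT hf (hH k hk), conj_sympT hf (hH k hk)] at this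
  have h1 := conj g hgH
  have h2 := conj g⁻¹ (H.inv_mem hgH)
  rw [hgb, hga] at h1
  rw [hinv, hinva] at h2
  have h3 : sympT hf (b + J *ᵥ s) c * sympT hf b (-c) ∈ H := by
    have := H.mul_mem h1 (H.inv_mem h)
    rwa [mul_inv_rev, sympT_inv hf b c, mul_assoc, mul_inv_cancel_left] at this
  have h4 : sympT hf (b - J *ᵥ s) c * sympT hf b (-c) ∈ H := by
    have := H.mul_mem h2 (H.inv_mem h)
    rwa [mul_inv_rev, sympT_inv hf b c, mul_assoc, mul_inv_cancel_left] at this
  rw [← sympT_polar hf b (J *ᵥ s) hbs']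
  have hcomm : sympT hf (b - J *ᵥ s) c * sympT hf b (-c) = sympT hf b (-c) * sympT hf (b - J *ᵥ s) c := by
    refine ext_mulVec fun x => ?_
    rw [Units.val_mul, Units.val_mul, ← Matrix.mulVec_mulVec, ← Matrix.mulVec_mulVec, tv_mulVec hf, tv_mulVec hf,
      tv_mulVec hf, tv_mulVec hf]
    simp only [map_add, map_sub, map_smul, LinearMap.add_apply, LinearMap.sub_apply, LinearMap.smul_apply, smul_eq_mul,
      sform_comm_zero hf hbs', hbs', sform_self hf]
    module
  have h5 := H.mul_mem h3 h4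
  rwa [hcomm, show sympT hf (b + J *ᵥ s) c * sympT hf b (-c) * (sympT hf b (-c) * sympT hf (b - J *ᵥ s) c) =
      sympT hf (b + J *ᵥ s) c * (sympT hf b (-c) * sympT hf b (-c)) * sympT hf (b - J *ᵥ s) c by group,
    sympT_mul hf, show -c + -c = -2 * c by ring, mul_assoc,
    show sympT hf b (-2 * c) * sympT hf (b - J *ᵥ s) c = sympT hf (b - J *ᵥ s) c * sympT hf b (-2 * c) from ?_,
    ← mul_assoc] at h5
  refine ext_mulVec fun x => ?_
  rw [Units.val_mul, Units.val_mul, ← Matrix.mulVec_mulVec, ← Matrix.mulVec_mulVec, tv_mulVec hf, tv_mulVec hf,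
    tv_mulVec hf, tv_mulVec hf]
  simp only [map_add, map_sub, map_smul, LinearMap.add_apply, LinearMap.sub_apply, LinearMap.smul_apply, smul_eq_mul,
    sform_comm_zero hf hbs', hbs', sform_self hf]
  module

/-- A root element outside the `K`-lines gives an isotropic transvection group. -/
lemma transv_group_of_root {a b : ι → F} (hb : b ∉ kline J a)
    (h : ∀ r : F, sympT hf b r * sympT hf a (-(r * δ)) ∈ H) :
    ∃ v, v ≠ 0 ∧ qJform f J v = 0 ∧ ∀ c : F, sympT hf v c ∈ H := by
  have hK := hS.kstr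
  set P := kline J a ⊔ Submodule.span F {J *ᵥ b} with hP
  have hδ : δ ≠ 0 := fun h => hS.irr 0 (by rw [h, mul_zero])
  have hbP : b ∉ P := by
    intro hm
    obtain ⟨z, hz, w, hw, e⟩ := Submodule.mem_sup.1 hm
    obtain ⟨t, rfl⟩ := Submodule.mem_span_singleton.1 hw
    by_cases ht : t = 0
    · rw [ht, zero_smul, add_zero] at e
      exact hb (e ▸ hz)
    · refine hb (hK.mem_of_J_eq (t := t⁻¹) (Submodule.smul_mem _ (-t⁻¹) hz) ?_)
      have e' := congrArg (fun x => t⁻¹ • x) e
      simp only [smul_add, smul_smul, inv_mul_cancel₀ ht, one_smul] at e'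
      rw [← e']
      module
  have hP3 : finrank F P ≤ 3 := by
    have h1 := Submodule.finrank_add_le_finrank_add_finrank (kline J a) (Submodule.span F {J *ᵥ b})
    have h2 : finrank F (Submodule.span F ({J *ᵥ b} : Set (ι → F))) ≤ 1 := (finrank_span_le_card _).trans (by simp)
    have := hK.finrank_kline_le a
    rw [← hP] at h1
    omega
  obtain ⟨u0, hu0P, hu0Q, hu0b⟩ := exists_singular_b_one_small hS.isNondeg hS.two P hbP (by omega)
  set u := (2 : F) • u0 with hu
  have huP : u ∈ perp hS.isNondeg P := Submodule.smul_mem _ _ hu0P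
  have huQ : qJform f J u = 0 := by rw [hu, q_smul hS.isNondeg, hu0Q, mul_zero]
  set R := (kline J a ⊔ kline J b) ⊔ kline J u with hR
  obtain ⟨s, hsR, hs0, hsQ⟩ := exists_singular hS.isNondeg (S := perp hS.isNondeg R) (by
    have h1 := Submodule.finrank_add_le_finrank_add_finrank (kline J a ⊔ kline J b) (kline J u)
    have h2 := Submodule.finrank_add_le_finrank_add_finrank (kline J a) (kline J b)
    have := hK.finrank_kline_le a
    have := hK.finrank_kline_le b
    have := hK.finrank_kline_le u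
    have := finrank_perp_add hS.isNondeg R
    rw [← hR] at h1
    omega)
  have key : ∀ x, x ∈ R → J *ᵥ x ∈ R → sform hf s x = 0 ∧ sform hf s (J *ᵥ x) = 0 := fun x hx hx' =>
    hS.sform_of_bform (hsR x hx) (hsR _ hx')
  have haR := key a (Submodule.mem_sup_left (Submodule.mem_sup_left (self_mem_kline a)))
    (Submodule.mem_sup_left (Submodule.mem_sup_left (J_mem_kline a)))
  have hbR := key b (Submodule.mem_sup_left (Submodule.mem_sup_right (self_mem_kline b)))
    (Submodule.mem_sup_left (Submodule.mem_sup_right (J_mem_kline b)))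
  have huR := key u (Submodule.mem_sup_right (self_mem_kline u)) (Submodule.mem_sup_right (J_mem_kline u))
  have hau := hS.sform_of_bform (huP a (Submodule.mem_sup_left (self_mem_kline a)))
    (huP _ (Submodule.mem_sup_left (J_mem_kline a)))
  have hbu : sform hf b u = 0 := by
    have h1 := huP (J *ᵥ b) (Submodule.mem_sup_right (Submodule.mem_span_singleton_self _))
    rw [hS.bform_eq, hS.sform_J_J, mul_eq_zero, mul_eq_zero] at h1
    exact (h1.resolve_left hS.two).resolve_left (neg_ne_zero.2 hδ)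
  have hbu' : sform hf b (J *ᵥ u) = 1 := by
    have h1 := hu0b
    rw [hS.bform_eq] at h1
    rw [hu, Matrix.mulVec_smul, map_smul, smul_eq_mul]
    exact h1
  have flip : ∀ x y, sform hf x (J *ᵥ y) = sform hf y (J *ᵥ x) := fun x y => by rw [sform_skew hf, hS.adj, neg_neg]
  refine ⟨J *ᵥ s, fun h0 => hs0 ?_, ?_, fun c => ?_⟩
  · have := hS.sq s
    rw [h0, Matrix.mulVec_zero, eq_comm, smul_eq_zero] at this
    exact this.resolve_left hδ
  · rw [hK.qJ, hsQ, mul_zero]
  have := polar_step hS hn hH hline hsQ huQ huR.1 huR.2 (sform_comm_zero hf hau.1) (by rw [flip]; exact hau.2)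
    (sform_comm_zero hf haR.1) (by rw [flip]; exact haR.2) hbu hbu' (sform_comm_zero hf hbR.1)
    (by rw [flip]; exact hbR.2) _ _ (h (c / 2))
  rwa [mul_div_cancel₀ _ hS.two] at this

/-- One isotropic transvection group gives all those of orthogonal isotropic lines. -/
lemma transv_step {v w : ι → F} (hvQ : qJform f J v = 0) (hwQ : qJform f J w = 0) (hv : v ∉ kline J w)
    (h1 : bform hS.isNondeg w v = 0) (h2 : bform hS.isNondeg (J *ᵥ w) v = 0)
    (h : ∀ c : F, sympT hf v c ∈ H) : ∀ c : F, sympT hf w c ∈ H := by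
  have hK := hS.kstr
  have hδ : δ ≠ 0 := fun h => hS.irr 0 (by rw [h, mul_zero])
  -- `w = J s`
  set s := δ⁻¹ • (J *ᵥ w) with hs
  have hJs : J *ᵥ s = w := by rw [hs, Matrix.mulVec_smul, hS.sq, inv_smul_smul₀ hδ]
  have hsK : s ∈ kline J w := Submodule.smul_mem _ _ (J_mem_kline w)
  have hsQ : qJform f J s = 0 := by rw [hs, q_smul hS.isNondeg, hK.qJ, hwQ]; simp
  set P := kline J s ⊔ Submodule.span F {J *ᵥ v} with hP
  have hvP : v ∉ P := by
    intro hm
    obtain ⟨z, hz, w', hw', e⟩ := Submodule.mem_sup.1 hm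
    obtain ⟨t, rfl⟩ := Submodule.mem_span_singleton.1 hw'
    have hzw : z ∈ kline J w :=
      (show kline J s ≤ kline J w from kline_le_iff.2 ⟨hsK, by rw [hJs]; exact self_mem_kline w⟩) hz
    by_cases ht : t = 0
    · rw [ht, zero_smul, add_zero] at e
      exact hv (e ▸ hzw)
    · refine hv (hK.mem_of_J_eq (t := t⁻¹) (Submodule.smul_mem _ (-t⁻¹) hzw) ?_)
      have e' := congrArg (fun x => t⁻¹ • x) e
      simp only [smul_add, smul_smul, inv_mul_cancel₀ ht, one_smul] at e'
      rw [← e']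
      module
  obtain ⟨u0, hu0P, hu0Q, hu0v⟩ := exists_singular_b_one_small hS.isNondeg hS.two P hvP (by
    have h1 := Submodule.finrank_add_le_finrank_add_finrank (kline J s) (Submodule.span F {J *ᵥ v})
    have h2 : finrank F (Submodule.span F ({J *ᵥ v} : Set (ι → F))) ≤ 1 := (finrank_span_le_card _).trans (by simp)
    have := hK.finrank_kline_le s
    rw [← hP] at h1
    omega)
  set u := (2 : F) • u0 with hu
  have huP : u ∈ perp hS.isNondeg P := Submodule.smul_mem _ _ hu0P
  have huQ : qJform f J u = 0 := by rw [hu, q_smul hS.isNondeg, hu0Q, mul_zero]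
  have hsu := hS.sform_of_bform (huP s (Submodule.mem_sup_left (self_mem_kline s)))
    (huP _ (Submodule.mem_sup_left (J_mem_kline s)))
  have flip : ∀ x y, sform hf x (J *ᵥ y) = sform hf y (J *ᵥ x) := fun x y => by rw [sform_skew hf, hS.adj, neg_neg]
  have hvu : sform hf v u = 0 := by
    have h1 := huP (J *ᵥ v) (Submodule.mem_sup_right (Submodule.mem_span_singleton_self _))
    rw [hS.bform_eq, hS.sform_J_J, mul_eq_zero, mul_eq_zero] at h1
    exact (h1.resolve_left hS.two).resolve_left (neg_ne_zero.2 hδ)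
  have hvu' : sform hf v (J *ᵥ u) = 1 := by
    have h1 := hu0v
    rw [hS.bform_eq] at h1
    rw [hu, Matrix.mulVec_smul, map_smul, smul_eq_mul]
    exact h1
  obtain ⟨e1, e2⟩ := hS.sform_of_bform h1 h2
  have hvs : sform hf v s = 0 := by rw [hs, map_smul, e2, smul_zero]
  have hvs' : sform hf v (J *ᵥ s) = 0 := by rw [hJs, e1]
  intro c
  have := polar_step hS hn hH hline hsQ huQ (sform_comm_zero hf hsu.1) (by rw [flip]; exact hsu.2)
    (a := 0) (by simp [-sform_apply]) (by simp [-sform_apply]) (by simp [-sform_apply]) (by simp [-sform_apply])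
    hvu hvu' hvs hvs' (c / 2) 1
    (H.mul_mem (h (c / 2)) (by
      rw [show sympT hf (0 : ι → F) 1 = 1 from ext_mulVec fun x => by rw [sympT_mulVec]; simp]
      exact H.one_mem))
  rwa [hJs, mul_div_cancel₀ _ hS.two] at this

/-- One isotropic transvection group gives all transvections. -/
lemma transv_all {v : ι → F} (hvQ : qJform f J v = 0) (hv0 : v ≠ 0) (h : ∀ c : F, sympT hf v c ∈ H) :
    ∀ x c, sympT hf x c ∈ H := by
  have hK := hS.kstr
  have hiso : ∀ w, qJform f J w = 0 → ∀ c : F, sympT hf w c ∈ H := by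
    intro w hw
    by_cases hw0 : w = 0
    · subst hw0
      intro c
      rw [show sympT hf (0 : ι → F) c = 1 from ext_mulVec fun x => by rw [sympT_mulVec]; simp]
      exact H.one_mem
    obtain ⟨e, heP, heQ, he0, heN, heN'⟩ :=
      exists_singular_perp_klines hK hn hvQ hw hv0 hw0
    obtain ⟨k1, k2⟩ := hK.korth_symm (heP v (Submodule.mem_sup_left (self_mem_kline v)))
      (heP _ (Submodule.mem_sup_left (J_mem_kline v)))
    have hE := transv_step hS hn hH hline hvQ heQ (hK.kline_symm heN hv0)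
      k1 k2 h
    exact transv_step hS hn hH hline heQ hw heN'
      (heP w (Submodule.mem_sup_right (self_mem_kline w))) (heP _ (Submodule.mem_sup_right (J_mem_kline w))) hE
  intro x c
  by_cases hx : qJform f J x = 0
  · exact hiso x hx c
  have hx0 : x ≠ 0 := by rintro rfl; exact hx (q_zero hS.isNondeg)
  obtain ⟨e, heP, heQ, hxe⟩ := exists_singular_b_one hS.isNondeg (Submodule.span F {x - J *ᵥ x}) (c := x) (by
    intro hm
    obtain ⟨t, ht⟩ := Submodule.mem_span_singleton.1 hm
    obtain ⟨a1, a2⟩ := hK.indep hx0 (r := 1 - t) (s := t) (by linear_combination (norm := module) (-1 : F) • ht)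
    rw [a2] at a1
    simp at a1) (by
    have : finrank F (Submodule.span F ({x - J *ᵥ x} : Set (ι → F))) ≤ 1 := (finrank_span_le_card _).trans (by simp)
    omega)
  rw [mem_perp_span_singleton hS.isNondeg, map_sub, LinearMap.sub_apply, hxe, sub_eq_zero, eq_comm] at heP
  set e' := qJform f J x • e with he'
  have he'Q : qJform f J e' = 0 := by rw [he', q_smul hS.isNondeg, heQ, mul_zero]
  have hwQ : qJform f J (x - e') = 0 := by
    rw [q_sub hS.isNondeg, he'Q, he', map_smul, hxe, smul_eq_mul]; ring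
  have hne : sform hf (x - e') e' ≠ 0 := by
    rw [map_sub, LinearMap.sub_apply, sform_self hf, sub_zero, he', map_smul, smul_eq_mul]
    refine mul_ne_zero hx fun h0 => ?_
    rw [hS.bform_eq, hS.sform_J_J, h0, mul_zero, mul_zero] at heP
    exact zero_ne_one heP
  have hg := hiso e' he'Q (sform hf (x - e') e')⁻¹
  have h1 := H.mul_mem (H.mul_mem hg (hiso _ hwQ c)) (H.inv_mem hg)
  rwa [conj_sympT hf (hH _ hg), tv_mulVec hf, inv_mul_cancel₀ hne, one_smul, sub_add_cancel] at h1

omit hH hline in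
/-- The normaliser in the symplectic group of the field generated by `J` is maximal. -/
theorem unitaryOverfield_isMaximal (G P : Subgroup (GL ι F))
    (hG : ∀ g, g ∈ G ↔ ∀ x y, f ((g : Matrix ι ι F) *ᵥ x) ((g : Matrix ι ι F) *ᵥ y) = f x y)
    (hP : ∀ g, g ∈ P ↔ g ∈ G ∧
      ∃ r s : F, s ≠ 0 ∧ ((g⁻¹ : GL ι F) : Matrix ι ι F) * J * (g : Matrix ι ι F) = r • (1 : Matrix ι ι F) + s • J) :
    Cfsg.Geo.IsMaximalIn G P := by
  have hK := hS.kstr
  have hlineP : ∀ v, qJform f J v = 0 → ∀ r : F, kT hf J δ v r ∈ P := by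
    intro v hv r
    refine (hP _).2 ⟨(hG _).2 (kT_preserves v r), 0, 1, one_ne_zero, ?_⟩
    rw [zero_smul, zero_add, one_smul, mul_assoc, ← hS.kT_commute hv r, ← mul_assoc, Units.inv_mul, one_mul]
  refine ⟨lt_of_le_not_ge (fun g hg => ((hP g).1 hg).1) fun hle => ?_, fun M hPM hMG => ?_⟩
  · obtain ⟨v, -, hv0, hv⟩ := exists_singular hS.isNondeg (S := ⊤) (by rw [finrank_top, finrank_fintype_fun_eq_card]; omega)
    obtain ⟨y, -, hy⟩ : ∃ y, y ∈ (⊤ : Submodule F (ι → F)) ∧ sform hf y v = 1 := by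
      obtain ⟨⟨x, hx⟩, -⟩ := hf.nondegenerate v hv0
      exact ⟨(f x v)⁻¹ • x, Submodule.mem_top, by
        rw [map_smul, LinearMap.smul_apply, smul_eq_mul, sform_apply, inv_mul_cancel₀ hx]⟩
    set g := sympT hf v 1
    obtain ⟨-, r, s, -, hrs⟩ := (hP _).1 (hle ((hG g).2 (sympT_preserves hf v 1)))
    have hgJ : ∀ x, J *ᵥ ((g : Matrix ι ι F) *ᵥ x) = (g : Matrix ι ι F) *ᵥ (r • x + s • (J *ᵥ x)) := by
      intro x
      have h1 := congrArg (fun A => (g : Matrix ι ι F) * A) hrs
      simp only [← mul_assoc, Units.mul_inv, one_mul] at h1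
      have h2 := congrArg (fun A => A *ᵥ x) h1
      simp only [← Matrix.mulVec_mulVec, Matrix.add_mulVec, Matrix.smul_mulVec, Matrix.one_mulVec] at h2
      exact h2
    have hJv : sform hf (J *ᵥ v) v = 0 := sform_comm_zero hf ((hS.iso_iff v).1 hv)
    have h1 := hgJ v
    simp only [g, tv_mulVec hf, map_add, map_smul, LinearMap.add_apply, LinearMap.smul_apply, sform_self hf, hJv,
      smul_zero, add_zero, mul_zero, zero_smul] at h1
    obtain ⟨hr, hs⟩ := hK.indep hv0 (r := -r) (s := 1 - s) (by linear_combination (norm := module) h1)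
    have h2 := hgJ y
    rw [show r = 0 from neg_eq_zero.1 hr, show s = 1 by linear_combination -hs] at h2
    simp only [g, tv_mulVec hf, zero_smul, zero_add, one_smul, Matrix.mulVec_add, one_mul, hy] at h2
    exact one_ne_zero (hK.indep hv0 (r := -(sform hf (J *ᵥ y) v)) (s := 1)
      (by linear_combination (norm := module) h2)).2
  by_cases hMP : M ≤ P
  · exact Or.inl (le_antisymm hMP hPM)
  refine Or.inr (le_antisymm hMG ?_)
  have hMI : ∀ g ∈ M, ∀ x y, f ((g : Matrix ι ι F) *ᵥ x) ((g : Matrix ι ι F) *ᵥ y) = f x y :=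
    fun g hg => (hG g).1 (hMG hg)
  have hlineM : ∀ v, qJform f J v = 0 → ∀ r : F, kT hf J δ v r ∈ M := fun v hv r => hPM (hlineP v hv r)
  obtain ⟨g, hgM, hgP⟩ := SetLike.not_le_iff_exists.1 hMP
  have hgI := hMI g hgM
  obtain ⟨v, hv, hvn⟩ : ∃ v, qJform f J v = 0 ∧ (g : Matrix ι ι F) *ᵥ (J *ᵥ v) ∉ kline J ((g : Matrix ι ι F) *ᵥ v) := by
    by_contra hc
    push Not at hc
    exact hgP ((hP g).2 ⟨hMG hgM, conj_J_mem hK (by omega) hc⟩)
  obtain ⟨w, hw0, hwQ, hw⟩ := transv_group_of_root hS hn hMI hlineM hvn (fun r => by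
    have := M.mul_mem (M.mul_mem hgM (hlineM v hv r)) (M.inv_mem hgM)
    rwa [kT, show g * (sympT hf (J *ᵥ v) r * sympT hf v (-(r * δ))) * g⁻¹ =
      (g * sympT hf (J *ᵥ v) r * g⁻¹) * (g * sympT hf v (-(r * δ)) * g⁻¹) by group,
      conj_sympT hf hgI, conj_sympT hf hgI] at this)
  exact fun x hx => mem_of_preserves hf M (transv_all hS hn hMI hlineM hwQ hw0 hw) x ((hG x).1 hx)

end CfsgLib.SympGeo
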