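import Cfsg.Agent.SympGeo.UnitaryOverfield

/-!
The normaliser of a quadratic extension field with non-trivial adjoint is maximal in the symplectic group
already in dimension six, odd characteristic.
-/

set_option autoImplicit false
set_option linter.unusedSectionVars false
set_option linter.style.longLine false

namespace CfsgLib.SympGeo.Six

open Cfsg.Geo Module CfsgLib.TransvGL CfsgLib.AltFormTransv CfsgLib.OrthGeo CfsgLib.SympGeo
open scoped Matrix MatrixGroups

variable {ι : Type} [Fintype ι] [DecidableEq ι] {F : Type*} [Field F] [Finite F]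
variable {f : (ι → F) → (ι → F) → F} {hf : Cfsg.Geo.IsSymplecticForm f} {J : Matrix ι ι F} {δ : F}
variable (hS : KSymp hf J δ)
include hS

lemma flip (x y : ι → F) : sform hf x (J *ᵥ y) = sform hf y (J *ᵥ x) := by
  rw [sform_skew hf, hS.adj, neg_neg]

lemma qJ_J (x : ι → F) : qJform f J (J *ᵥ x) = -δ * qJform f J x := by
  rw [hS.kstr.qJ]

lemma delta_ne : δ ≠ 0 := fun h => hS.irr 0 (by rw [h, mul_zero])

lemma orth_symm {x y : ι → F} (h1 : sform hf x y = 0) (h2 : sform hf x (J *ᵥ y) = 0) :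
    sform hf y x = 0 ∧ sform hf y (J *ᵥ x) = 0 :=
  ⟨sform_comm_zero hf h1, by rw [flip hS]; exact h2⟩

lemma kT_norm_ne {x u : ι → F} (h : sform hf x u ≠ 0 ∨ sform hf x (J *ᵥ u) ≠ 0) :
    sform hf x (J *ᵥ u) * sform hf x (J *ᵥ u) - δ * (sform hf x u * sform hf x u) ≠ 0 := by
  intro h0
  by_cases hB : sform hf x u = 0
  · rw [hB] at h0
    exact (h.resolve_left (fun h => h hB)) (mul_self_eq_zero.1 (by linear_combination h0))
  · refine hS.irr (sform hf x (J *ᵥ u) / sform hf x u) ?_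
    field_simp
    linear_combination h0

/-- The translation of `x` under the root element of an isotropic line. -/
lemma sform_kT {u : ι → F} (hu : qJform f J u = 0) (x : ι → F) :
    sform hf x ((kT hf J δ u 1 : Matrix ι ι F) *ᵥ x) =
      sform hf x (J *ᵥ u) * sform hf x (J *ᵥ u) - δ * (sform hf x u * sform hf x u) := by
  rw [hS.kT_mulVec hu]
  simp only [map_add, map_sub, map_smul, smul_eq_mul, sform_self hf]
  ring

/-- The reflection in the `K`-line of an anisotropic vector. -/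
lemma exists_reflection {z : ι → F} (hz : qJform f J z ≠ 0) : ∃ g : GL ι F,
    (∀ x y, f ((g : Matrix ι ι F) *ᵥ x) ((g : Matrix ι ι F) *ᵥ y) = f x y) ∧
    (g : Matrix ι ι F) * J = J * (g : Matrix ι ι F) ∧
    ∀ x, (g : Matrix ι ι F) *ᵥ x =
      x - (2 * (sform hf x (J *ᵥ z) / qJform f J z)) • z + (2 * (sform hf x z / qJform f J z)) • (J *ᵥ z) := by
  set μ := qJform f J z with hμ
  have hz1 : sform hf z (J *ᵥ z) = μ := rfl
  have hz2 : sform hf (J *ᵥ z) z = -μ := by rw [sform_skew hf, hz1]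
  set l : (ι → F) →ₗ[F] (ι → F) := LinearMap.id - ((2 / μ) • (sform hf).flip (J *ᵥ z)).smulRight z +
    ((2 / μ) • (sform hf).flip z).smulRight (J *ᵥ z) with hl
  have hla : ∀ x, l x = x - (2 * (sform hf x (J *ᵥ z) / μ)) • z + (2 * (sform hf x z / μ)) • (J *ᵥ z) := fun x => by
    show x - ((2 / μ) * sform hf x (J *ᵥ z)) • z + ((2 / μ) * sform hf x z) • (J *ᵥ z) = _
    match_scalars <;> ring
  have hinv : ∀ x, l (l x) = x := fun x => by
    simp only [hla, map_add, map_sub, map_smul, LinearMap.add_apply, LinearMap.sub_apply, LinearMap.smul_apply,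
      smul_eq_mul, sform_self hf, hz1, hz2]
    match_scalars <;> field_simp <;> ring
  refine ⟨ofEquiv (LinearEquiv.ofInvolutive l hinv), fun x y => ?_, ?_, fun x => ?_⟩
  · rw [ofEquiv_mulVec, ofEquiv_mulVec]
    change f (l x) (l y) = f x y
    simp only [← sform_apply hf, hla, map_add, map_sub, map_smul, LinearMap.add_apply, LinearMap.sub_apply,
      LinearMap.smul_apply, smul_eq_mul, sform_self hf, hz1, hz2, sform_skew hf z y, sform_skew hf (J *ᵥ z) y]
    field_simp
    ring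
  · refine Matrix.ext_of_mulVec_single fun i => ?_
    generalize (Pi.single i 1 : ι → F) = x
    rw [← Matrix.mulVec_mulVec, ← Matrix.mulVec_mulVec, ofEquiv_mulVec, ofEquiv_mulVec]
    change l (J *ᵥ x) = J *ᵥ l x
    simp only [hla, Matrix.mulVec_add, Matrix.mulVec_sub, Matrix.mulVec_smul, hS.sq, hS.adj x, map_smul,
      smul_eq_mul]
    match_scalars <;> field_simp <;> ring
  · rw [ofEquiv_mulVec]
    exact hla x

variable (hn : 6 ≤ Fintype.card ι)
include hn

/-- An isotropic vector pairing to one with `x`. -/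
lemma exists_iso_one {x : ι → F} (hx : x ≠ 0) :
    ∃ u, qJform f J u = 0 ∧ bform hS.isNondeg x u = 1 := by
  obtain ⟨u, -, hu, hxu⟩ := exists_singular_b_one_small hS.isNondeg hS.two (⊥ : Submodule F (ι → F))
    (c := x) (by simpa using hx) (by rw [finrank_bot]; omega)
  exact ⟨u, hu, hxu⟩

/-- An isotropic vector not orthogonal to `x`. -/
lemma exists_iso_not_orth {x : ι → F} (hx : x ≠ 0) :
    ∃ u, qJform f J u = 0 ∧ sform hf x (J *ᵥ u) ≠ 0 := by
  obtain ⟨u, hu, hxu⟩ := exists_iso_one hS hn hx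
  rw [hS.bform_eq] at hxu
  exact ⟨u, hu, fun h => by rw [h, mul_zero] at hxu; exact zero_ne_one hxu⟩

/-- An isotropic vector orthogonal to the `K`-line of `p` and not to `q`. -/
lemma exists_iso_avoid {p q : ι → F} (hp : qJform f J p ≠ 0) (hq : q ∉ kline J p) :
    ∃ u, qJform f J u = 0 ∧ sform hf p u = 0 ∧ sform hf p (J *ᵥ u) = 0 ∧
      (sform hf q u ≠ 0 ∨ sform hf q (J *ᵥ u) ≠ 0) := by
  have hQ := hS.isNondeg
  have hK := hS.kstr
  set T := perp hQ (kline J p) with hT
  have hTp : ∀ u ∈ T, sform hf p u = 0 ∧ sform hf p (J *ᵥ u) = 0 := fun u hu => by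
    obtain ⟨e1, e2⟩ := hS.sform_of_bform (hu p (self_mem_kline p)) (hu _ (J_mem_kline p))
    exact orth_symm hS e1 e2
  have key : ∀ u ∈ T, qJform f J u = 0 → bform hQ q u ≠ 0 → ∃ u, qJform f J u = 0 ∧ sform hf p u = 0 ∧
      sform hf p (J *ᵥ u) = 0 ∧ (sform hf q u ≠ 0 ∨ sform hf q (J *ᵥ u) ≠ 0) := fun u hu hu0 hqu =>
    ⟨u, hu0, (hTp u hu).1, (hTp u hu).2, Or.inr fun h => hqu (by rw [hS.bform_eq, h, mul_zero])⟩
  obtain ⟨u₀, hu₀T, hu₀0, hu₀⟩ := exists_singular hQ (S := T) (by
    have := hK.finrank_kline_le p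
    have := finrank_perp_add hQ (kline J p)
    rw [← hT] at this
    omega)
  have hu₀p : u₀ ∉ kline J p := fun hm => by
    obtain ⟨r, s, e⟩ := mem_kline.1 hm
    have h1 := hu₀
    rw [← e] at h1
    simp only [qJform, ← sform_apply hf, Matrix.mulVec_add, Matrix.mulVec_smul, hS.sq, map_add, map_smul,
      LinearMap.add_apply, LinearMap.smul_apply, smul_eq_mul, sform_self hf, sform_skew hf (J *ᵥ p) p] at h1
    have h2 : (r * r - δ * (s * s)) * sform hf p (J *ᵥ p) = 0 := by linear_combination h1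
    have h3 := (mul_eq_zero.1 h2).resolve_right hp
    have hs : s = 0 := by
      by_contra hs
      refine hS.irr (r / s) ?_
      field_simp
      linear_combination h3
    rw [hs] at h3 e
    rw [mul_self_eq_zero.1 (show r * r = 0 by linear_combination h3), zero_smul, zero_smul, add_zero] at e
    exact hu₀0 e.symm
  obtain ⟨y, hyT, hy⟩ : ∃ y ∈ T, bform hQ y u₀ ≠ 0 := exists_mem_b_ne_zero hQ (by rwa [hT, perp_perp])
  obtain ⟨z, hzT, hz⟩ : ∃ z ∈ T, bform hQ z q ≠ 0 := exists_mem_b_ne_zero hQ (by rwa [hT, perp_perp])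
  set y₁ := (bform hQ y u₀)⁻¹ • y with hy₁
  have hy₁T : y₁ ∈ T := T.smul_mem _ hyT
  have hy₁1 : bform hQ y₁ u₀ = 1 := by
    rw [hy₁, map_smul, LinearMap.smul_apply, smul_eq_mul, inv_mul_cancel₀ hy]
  clear_value y₁
  set w := y₁ - qJform f J y₁ • u₀ with hw
  have hwT : w ∈ T := T.sub_mem hy₁T (T.smul_mem _ hu₀T)
  have hwQ : qJform f J w = 0 := by
    rw [hw, q_sub hQ, q_smul hQ, hu₀, map_smul, hy₁1, smul_eq_mul]; ring
  by_cases h1 : bform hQ q u₀ = 0
  swap
  · exact key u₀ hu₀T hu₀ h1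
  by_cases h2 : bform hQ q w = 0
  swap
  · exact key w hwT hwQ h2
  have hu₀w : bform hQ u₀ w = 1 := by
    rw [hw, map_sub, map_smul, b_self hQ, hu₀, b_symm hQ, hy₁1]; simp
  set z' := z - bform hQ u₀ z • w - bform hQ w z • u₀ with hz'
  have hz'T : z' ∈ T := T.sub_mem (T.sub_mem hzT (T.smul_mem _ hwT)) (T.smul_mem _ hu₀T)
  have hqz' : bform hQ q z' ≠ 0 := by
    rw [hz', map_sub, map_sub, map_smul, map_smul, h1, h2, smul_zero, smul_zero, sub_zero, sub_zero, b_symm hQ]
    exact hz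
  have hu₀z' : bform hQ u₀ z' = 0 := by
    rw [hz', map_sub, map_sub, map_smul, map_smul, hu₀w, b_self hQ, hu₀]; simp
  have hwz' : bform hQ w z' = 0 := by
    rw [hz', map_sub, map_sub, map_smul, map_smul, b_self hQ, hwQ, b_symm hQ w u₀, hu₀w]; simp
  refine key (u₀ + z' - qJform f J z' • w) (T.sub_mem (T.add_mem hu₀T hz'T) (T.smul_mem _ hwT)) ?_ ?_
  · rw [q_sub hQ, q_add hQ, q_smul hQ, hu₀, hwQ, hu₀z', map_smul, map_add, LinearMap.add_apply, hu₀w,
      b_symm hQ z' w, hwz', smul_eq_mul]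
    ring
  · rwa [map_sub, map_add, map_smul, h1, h2, smul_zero, sub_zero, zero_add]

variable {H : Subgroup (GL ι F)}
variable (hH : ∀ g ∈ H, ∀ x y, f ((g : Matrix ι ι F) *ᵥ x) ((g : Matrix ι ι F) *ᵥ y) = f x y)
variable (hC : ∀ g : GL ι F, (∀ x y, f ((g : Matrix ι ι F) *ᵥ x) ((g : Matrix ι ι F) *ᵥ y) = f x y) →
  (g : Matrix ι ι F) * J = J * (g : Matrix ι ι F) → g ∈ H)
include hH hC

lemma kT_mem {u : ι → F} (hu : qJform f J u = 0) (r : F) : kT hf J δ u r ∈ H :=
  hC _ (kT_preserves u r) (hS.kT_commute hu r)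

omit hS hn hC in
lemma conj_transv {g : GL ι F} (hg : g ∈ H) {v : ι → F} {c : F} (hv : sympT hf v c ∈ H) :
    sympT hf ((g : Matrix ι ι F) *ᵥ v) c ∈ H := by
  have := H.mul_mem (H.mul_mem hg hv) (H.inv_mem hg)
  rwa [conj_sympT hf (hH _ hg)] at this

omit hS hn hC in
lemma group_add {x y : ι → F} (hx : ∀ c, sympT hf x c ∈ H) (hy : ∀ c, sympT hf y c ∈ H)
    (hxy : sform hf x y ≠ 0) (k : F) (c : F) : sympT hf (x + k • y) c ∈ H := by
  have := conj_transv hH (hy (k / sform hf x y)) (hx c)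
  rwa [tv_mulVec hf, div_mul_cancel₀ _ hxy] at this

omit hS hn hH hC in
lemma group_smul {x : ι → F} (hx : ∀ c, sympT hf x c ∈ H) (k c : F) : sympT hf (k • x) c ∈ H := by
  rw [sympT_smul hf]; exact hx _

/-- A pair of orthogonal vectors, the first anisotropic, gives a transvection group. -/
lemma group_of_pair {p q : ι → F} (hp : qJform f J p ≠ 0) (hq : q ∉ kline J p) (hpq : sform hf p q = 0)
    (h : ∀ r : F, biT hf p (r • q) ∈ H) : ∀ c : F, sympT hf p c ∈ H := by
  obtain ⟨u, hu, hpu, hpu', hqu⟩ := exists_iso_avoid hS hn hp hq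
  set g := kT hf J δ u 1 with hg
  have hgH : g ∈ H := kT_mem hS hn hH hC hu 1
  have hgp : (g : Matrix ι ι F) *ᵥ p = p := by rw [hg, hS.kT_mulVec hu, hpu, hpu']; simp
  have hc : sform hf q ((g : Matrix ι ι F) *ᵥ q) ≠ 0 := by
    rw [hg, sform_kT hS hu]; exact kT_norm_ne hS hqu
  set q' := (g : Matrix ι ι F) *ᵥ q with hq'
  have hpq' : sform hf p q' = 0 := by
    have := hH g hgH p q
    rw [hgp] at this
    exact this.trans hpq
  have h' : biT hf p q' ∈ H := by
    have h1 : biT hf p q ∈ H := by simpa using h 1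
    have := H.mul_mem (H.mul_mem hgH h1) (H.inv_mem hgH)
    rwa [conj_biT hf (hH g hgH) hpq, hgp] at this
  intro c
  set r := c / (-2 * sform hf q q') with hr
  have hpr : sform hf p (r • q) = 0 := by rw [map_smul, hpq, smul_zero]
  have h1 := H.mul_mem (H.mul_mem (h r) h') (H.inv_mem (H.mul_mem h' (h r)))
  rw [biT_mul hf hpr hpq', biT_mul hf hpq' hpr, add_comm q' (r • q), mul_inv_rev, mul_assoc,
    ← mul_assoc (sympT hf p _) _ _, sympT_inv hf, sympT_mul hf, ← mul_assoc] at h1
  have hcm : ∀ k : F, biT hf p (r • q + q') * sympT hf p k = sympT hf p k * biT hf p (r • q + q') := fun k => by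
    refine ext_mulVec fun x => ?_
    have hs : sform hf p (r • q + q') = 0 := by rw [map_add, hpr, hpq', add_zero]
    rw [Units.val_mul, Units.val_mul, ← Matrix.mulVec_mulVec, ← Matrix.mulVec_mulVec, tv_mulVec hf,
      biT_mulVec hf hs, biT_mulVec hf hs, tv_mulVec hf]
    simp only [map_add, map_smul, LinearMap.add_apply, LinearMap.smul_apply, smul_eq_mul,
      sform_comm_zero hf hpq', sform_comm_zero hf hpq, hpq, hpq', sform_self hf]
    module
  rw [hcm, mul_inv_cancel_right] at h1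
  convert h1 using 2
  simp only [map_smul, LinearMap.smul_apply, smul_eq_mul, sform_skew hf q' q, hr]
  field_simp [hS.two]
  ring

/-- A root element outside the `K`-lines gives an anisotropic or isotropic transvection group. -/
lemma group_of_root {a b : ι → F} (hb : b ∉ kline J a) (hab : sform hf a b = 0)
    (h : ∀ r : F, sympT hf b r * sympT hf a (-(r * δ)) ∈ H) :
    ∃ v, v ≠ 0 ∧ ∀ c : F, sympT hf v c ∈ H := by
  have hQ := hS.isNondeg
  have hK := hS.kstr
  have hδ := delta_ne hS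
  by_cases ha0 : a = 0
  · refine ⟨b, fun h0 => hb (h0 ▸ zero_mem _), fun c => ?_⟩
    have h1 : sympT hf a (-(c * δ)) = 1 := ext_mulVec fun x => by rw [sympT_mulVec, ha0]; simp
    have := h c
    rwa [h1, mul_one] at this
  have hab' : a ∉ kline J b := hK.kline_symm hb ha0
  set T := perp hQ (kline J b) with hT
  have hTb : ∀ z ∈ T, sform hf b z = 0 ∧ sform hf b (J *ᵥ z) = 0 := fun z hz => by
    obtain ⟨e1, e2⟩ := hS.sform_of_bform (hz b (self_mem_kline b)) (hz _ (J_mem_kline b))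
    exact orth_symm hS e1 e2
  obtain ⟨z, hzT, hzQ, hzo, hzk⟩ : ∃ z ∈ T, qJform f J z ≠ 0 ∧ bform hQ a z ≠ 0 ∧ a ∉ kline J z := by
    by_cases hcase : a ∈ T ∧ qJform f J a ≠ 0
    · obtain ⟨haT, haQ⟩ := hcase
      obtain ⟨e, he, he0⟩ := Submodule.exists_mem_ne_zero_of_ne_bot
        (p := perp hQ (kline J b ⊔ kline J a)) (fun h0 => by
          have := finrank_perp_add hQ (kline J b ⊔ kline J a)
          rw [h0, finrank_bot] at this
          have := Submodule.finrank_add_le_finrank_add_finrank (kline J b) (kline J a)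
          have := hK.finrank_kline_le a
          have := hK.finrank_kline_le b
          omega)
      rw [perp_sup, Submodule.mem_inf] at he
      have hae : bform hQ a e = 0 := he.2 a (self_mem_kline a)
      have hJe : J *ᵥ e ∈ perp hQ (kline J b) ∧ J *ᵥ e ∈ perp hQ (kline J a) := by
        have aux : ∀ v, e ∈ perp hQ (kline J v) → J *ᵥ e ∈ perp hQ (kline J v) := fun v hv w hw => by
          have h1 := hv _ (hK.J_stable hw)
          rw [hK.adj] at h1
          linear_combination -h1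
        exact ⟨aux b he.1, aux a he.2⟩
      have haJe : bform hQ a (J *ᵥ e) = 0 := hJe.2 a (self_mem_kline a)
      obtain ⟨e', he'T, hae', hJae', he'0, hne⟩ : ∃ e', e' ∈ T ∧ bform hQ a e' = 0 ∧ bform hQ (J *ᵥ a) e' = 0 ∧
          e' ≠ 0 ∧ qJform f J (a + e') ≠ 0 := by
        by_cases h1 : qJform f J (a + e) = 0
        · refine ⟨e + J *ᵥ e, T.add_mem he.1 hJe.1, by rw [map_add, hae, haJe, add_zero], ?_, fun h0 => ?_, ?_⟩
          · rw [map_add, he.2 _ (J_mem_kline a), hJe.2 _ (J_mem_kline a), add_zero]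
          · exact one_ne_zero (hK.indep he0 (r := 1) (s := 1) (by rw [one_smul, one_smul, h0])).1
          rw [q_add hQ, hae, add_zero] at h1
          rw [q_add hQ, q_add hQ, qJ_J hS, map_add, hae, haJe, hK.bJ, zero_mul]
          intro h0
          have h3 : δ * qJform f J e = 0 := by linear_combination h1 - h0
          rw [(mul_eq_zero.1 h3).resolve_left hδ, add_zero] at h1
          exact haQ h1
        · exact ⟨e, he.1, hae, he.2 _ (J_mem_kline a), he0, h1⟩
      refine ⟨a + e', T.add_mem haT he'T, hne, ?_, fun hm => ?_⟩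
      · rw [map_add, hae', add_zero, b_self hQ]; exact mul_ne_zero hS.two haQ
      · obtain ⟨r, s, e2⟩ := mem_kline.1 hm
        have g1 := congrArg (fun v => bform hQ a v) e2
        have g2 := congrArg (fun v => bform hQ (J *ᵥ a) v) e2
        simp only [Matrix.mulVec_add, map_add, map_smul, smul_eq_mul, hae', hJae', b_self hQ, hK.bJ, qJ_J hS,
          b_symm hQ (J *ᵥ a) a] at g1 g2
        have hJe' : bform hQ a (J *ᵥ e') = 0 := by
          have := hK.adj a e'
          rw [hJae', hae'] at this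
          linear_combination this
        have hJJ : bform hQ (J *ᵥ a) (J *ᵥ e') = 0 := by
          have := hK.adj a (J *ᵥ e')
          rw [hJe', hK.sq, map_add, map_smul, map_smul, hJe', hae'] at this
          simpa using this
        rw [hJe'] at g1
        rw [hJJ] at g2
        have hr : r = 1 := mul_right_cancel₀ (mul_ne_zero hS.two haQ) (by linear_combination g1)
        have hs : s = 0 := by
          have : s * (2 * (-δ * qJform f J a)) = 0 := by linear_combination g2
          exact (mul_eq_zero.1 this).resolve_right (mul_ne_zero hS.two (mul_ne_zero (neg_ne_zero.2 hδ) haQ))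
        rw [hr, hs, one_smul, zero_smul, add_zero, add_eq_left] at e2
        exact he'0 e2
    obtain ⟨z₀, hz₀T, hz₀⟩ : ∃ z₀ ∈ T, bform hQ z₀ a ≠ 0 := exists_mem_b_ne_zero hQ (by rwa [hT, perp_perp])
    rw [b_symm hQ] at hz₀
    have hnot : ∀ z ∈ T, qJform f J z ≠ 0 → a ∉ kline J z := fun z hz hzQ hm => by
      have haT : a ∈ T := by
        obtain ⟨r, s, rfl⟩ := mem_kline.1 hm
        refine T.add_mem (T.smul_mem _ hz) (T.smul_mem _ fun w hw => ?_)
        have h1 := hz _ (hK.J_stable hw)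
        rw [hK.adj] at h1
        linear_combination -h1
      have haQ : qJform f J a = 0 := not_not.1 fun h => hcase ⟨haT, h⟩
      obtain ⟨r, s, e⟩ := mem_kline.1 hm
      rw [← e, q_add hQ, q_smul hQ, q_smul hQ, qJ_J hS, map_smul, map_smul, LinearMap.smul_apply, hK.bJ] at haQ
      simp only [smul_eq_mul, zero_mul, mul_zero, add_zero] at haQ
      have h3 : r * r - δ * (s * s) = 0 :=
        (mul_eq_zero.1 (show (r * r - δ * (s * s)) * qJform f J z = 0 by linear_combination haQ)).resolve_right hzQ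
      have hs : s = 0 := by
        by_contra hs
        refine hS.irr (r / s) ?_
        field_simp
        linear_combination h3
      rw [hs] at h3 e
      rw [mul_self_eq_zero.1 (show r * r = 0 by linear_combination h3), zero_smul, zero_smul, add_zero] at e
      exact ha0 e.symm
    obtain ⟨z₁, hz₁T, hz₁⟩ : ∃ z₁ ∈ T, qJform f J z₁ ≠ 0 := by
      by_contra hc
      push Not at hc
      have h1 := two_mul_finrank_le hQ (S := T) hc
      have h2 := hK.finrank_kline_le b
      have h3 := finrank_perp_add hQ (kline J b)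
      rw [← hT] at h3
      omega
    by_cases h1 : bform hQ a z₁ = 0
    swap
    · exact ⟨z₁, hz₁T, hz₁, h1, hnot z₁ hz₁T hz₁⟩
    have hz : ∀ t : F, qJform f J (z₀ + t • z₁) ≠ 0 → ∃ z ∈ T, qJform f J z ≠ 0 ∧ bform hQ a z ≠ 0 ∧ a ∉ kline J z :=
      fun t ht => ⟨_, T.add_mem hz₀T (T.smul_mem _ hz₁T), ht, by rwa [map_add, map_smul, h1, smul_zero, add_zero],
        hnot _ (T.add_mem hz₀T (T.smul_mem _ hz₁T)) ht⟩
    have hval : ∀ t : F, qJform f J (z₀ + t • z₁) =
        qJform f J z₀ + t ^ 2 * qJform f J z₁ + t * bform hQ z₀ z₁ := fun t => by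
      rw [q_add hQ, q_smul hQ, map_smul, smul_eq_mul]
    by_contra hc
    have h00 : ∀ t : F, qJform f J (z₀ + t • z₁) = 0 := fun t => not_not.1 fun ht => hc (hz t ht)
    have e0 := h00 0
    have ep := h00 1
    have em := h00 (-1)
    rw [hval] at e0 ep em
    have : (2 : F) * qJform f J z₁ = 0 := by linear_combination ep + em - 2 * e0
    exact mul_ne_zero hS.two hz₁ this
  obtain ⟨ρ, hρI, hρC, hρ⟩ := exists_reflection hS hzQ
  have hρH : ρ ∈ H := hC ρ hρI hρC
  obtain ⟨hzb, hzb'⟩ := hTb z hzT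
  have hρb : (ρ : Matrix ι ι F) *ᵥ b = b := by rw [hρ, hzb, hzb']; simp
  set A := sform hf a (J *ᵥ z) / qJform f J z with hA
  set C := sform hf a z / qJform f J z with hC'
  set p := A • z - C • (J *ᵥ z) with hp
  have hρa : (ρ : Matrix ι ι F) *ᵥ a = a - (2 : F) • p := by rw [hρ, hp, ← hA, ← hC']; module
  have hzz : sform hf z (J *ᵥ z) = qJform f J z := rfl
  have hzz' : sform hf (J *ᵥ z) z = -qJform f J z := by rw [sform_skew hf, hzz]
  have hap : sform hf a p = 0 := by
    rw [hp, map_sub, map_smul, map_smul, hA, hC', smul_eq_mul, smul_eq_mul]; ring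
  have hpp : qJform f J p = (A * A - δ * (C * C)) * qJform f J z := by
    rw [hp]
    simp only [qJform, ← sform_apply hf, Matrix.mulVec_sub, Matrix.mulVec_smul, hS.sq, map_sub, map_smul,
      LinearMap.sub_apply, LinearMap.smul_apply, smul_eq_mul, sform_self hf, hzz']
    rw [hzz]
    ring
  have hA0 : A ≠ 0 := by
    rw [hA]
    refine div_ne_zero (fun h0 => hzo ?_) hzQ
    rw [hS.bform_eq, h0, mul_zero]
  have hp0 : qJform f J p ≠ 0 := by
    rw [hpp]
    refine mul_ne_zero (fun h0 => ?_) hzQ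
    by_cases hC0 : C = 0
    · rw [hC0] at h0
      exact hA0 (mul_self_eq_zero.1 (by linear_combination h0))
    · refine hS.irr (A / C) ?_
      field_simp
      linear_combination h0
  have hpz : p ∈ kline J z := mem_kline.2 ⟨A, -C, by rw [hp, neg_smul, sub_eq_add_neg]⟩
  set q := a - p with hq
  have hqp : q ∉ kline J p := fun hm => hzk (by
    rw [show a = q + p by rw [hq, sub_add_cancel]]
    exact Submodule.add_mem _ (kline_le_iff.2 ⟨hpz, hK.J_stable hpz⟩ hm) hpz)
  have hpq : sform hf p q = 0 := by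
    rw [hq, map_sub, sform_self hf, sform_comm_zero hf hap, sub_zero]
  refine ⟨p, fun h0 => hp0 (by rw [h0]; exact q_zero hQ), group_of_pair hS hn hH hC hp0 hqp hpq fun r => ?_⟩
  set r' := -(r / (2 * δ)) with hr'
  have h1 := h r'
  have h2 := H.mul_mem (H.mul_mem hρH h1) (H.inv_mem hρH)
  rw [show ρ * (sympT hf b r' * sympT hf a (-(r' * δ))) * ρ⁻¹ =
      (ρ * sympT hf b r' * ρ⁻¹) * (ρ * sympT hf a (-(r' * δ)) * ρ⁻¹) by group,
    conj_sympT hf hρI, conj_sympT hf hρI, hρb, hρa] at h2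
  have h3 := H.mul_mem (H.inv_mem h2) h1
  rw [mul_inv_rev, mul_assoc, inv_mul_cancel_left, sympT_inv hf] at h3
  convert h3 using 1
  refine ext_mulVec fun x => ?_
  have hpr : sform hf p (r • q) = 0 := by rw [map_smul, hpq, smul_zero]
  rw [biT_mulVec hf hpr, Units.val_mul, ← Matrix.mulVec_mulVec, tv_mulVec hf, tv_mulVec hf]
  simp only [hq, map_add, map_sub, map_smul, LinearMap.add_apply, LinearMap.sub_apply, LinearMap.smul_apply,
    smul_eq_mul, hap, sform_comm_zero hf hap, sform_self hf, hr']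
  match_scalars <;> field_simp [hS.two] <;> ring

/-- A transvection group at an isotropic vector. -/
lemma iso_group_of_group {v : ι → F} (hv0 : v ≠ 0) (h : ∀ c : F, sympT hf v c ∈ H) :
    ∃ e, e ≠ 0 ∧ qJform f J e = 0 ∧ ∀ c : F, sympT hf e c ∈ H := by
  obtain ⟨u, hu, hvu⟩ := exists_iso_not_orth hS hn hv0
  set g := kT hf J δ u 1 with hg
  have hgH : g ∈ H := kT_mem hS hn hH hC hu 1
  set d := (g : Matrix ι ι F) *ᵥ v - v with hd
  have hk : sform hf v ((g : Matrix ι ι F) *ᵥ v) ≠ 0 := by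
    rw [hg, sform_kT hS hu]; exact kT_norm_ne hS (Or.inr hvu)
  have hd0 : d ≠ 0 := fun h0 => hk (by rw [sub_eq_zero.1 h0, sform_self hf])
  refine ⟨d, hd0, ?_, fun c => ?_⟩
  · have hde : d = sform hf v (J *ᵥ u) • (J *ᵥ u) - (δ * sform hf v u) • u := by
      rw [hd, hg, hS.kT_mulVec hu]; module
    have hQ := hS.isNondeg
    rw [hde, q_sub hQ, q_smul hQ, q_smul hQ, qJ_J hS, hu, map_smul, map_smul, LinearMap.smul_apply,
      b_symm hQ, hS.kstr.bJ, hu]
    simp
  · have := group_add hH (fun c => conj_transv hH hgH (h c)) h (by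
      rw [sform_skew hf, neg_ne_zero]; exact hk) (-1) c
    rwa [neg_smul, one_smul, ← sub_eq_add_neg] at this

/-- From `e` to an isotropic vector of the line of `u` orthogonal to `e` for the quadratic form. -/
lemma step_dir {e u : ι → F} (he : ∀ c : F, sympT hf e c ∈ H) (hu : qJform f J u = 0)
    (heu : sform hf e u ≠ 0 ∨ sform hf e (J *ᵥ u) ≠ 0) :
    ∃ x ∈ kline J u, qJform f J x = 0 ∧ sform hf e x ≠ 0 ∧ sform hf e (J *ᵥ x) = 0 ∧
      ∀ c : F, sympT hf x c ∈ H := by
  set g := kT hf J δ u 1 with hg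
  have hgH : g ∈ H := kT_mem hS hn hH hC hu 1
  have hk : sform hf e ((g : Matrix ι ι F) *ᵥ e) ≠ 0 := by
    rw [hg, sform_kT hS hu]; exact kT_norm_ne hS heu
  set d := (g : Matrix ι ι F) *ᵥ e - e with hd
  have hde : d = sform hf e (J *ᵥ u) • (J *ᵥ u) - (δ * sform hf e u) • u := by
    rw [hd, hg, hS.kT_mulVec hu]; module
  refine ⟨d, ?_, ?_, ?_, ?_, fun c => ?_⟩
  · rw [hde]
    exact Submodule.sub_mem _ (Submodule.smul_mem _ _ (J_mem_kline u)) (Submodule.smul_mem _ _ (self_mem_kline u))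
  · have hQ := hS.isNondeg
    rw [hde, q_sub hQ, q_smul hQ, q_smul hQ, qJ_J hS, hu, map_smul, map_smul, LinearMap.smul_apply,
      b_symm hQ, hS.kstr.bJ, hu]
    simp
  · rwa [hd, map_sub, sform_self hf, sub_zero]
  · rw [hde, Matrix.mulVec_sub, Matrix.mulVec_smul, Matrix.mulVec_smul, hS.sq, map_sub, map_smul, map_smul,
      map_smul]
    simp only [smul_eq_mul]
    ring
  · have := group_add hH (fun c => conj_transv hH hgH (he c)) he (by
      rw [sform_skew hf, neg_ne_zero]; exact hk) (-1) c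
    rwa [neg_smul, one_smul, ← sub_eq_add_neg] at this

/-- An isotropic centre fills every isotropic `K`-line not orthogonal to it. -/
lemma fill_line {e w : ι → F} (he0 : qJform f J e = 0) (he : ∀ c : F, sympT hf e c ∈ H)
    (hw : qJform f J w = 0) (hew : sform hf e w ≠ 0 ∨ sform hf e (J *ᵥ w) ≠ 0) :
    ∀ T ∈ kline J w, ∀ c : F, sympT hf T c ∈ H := by
  have hQ := hS.isNondeg
  have hK := hS.kstr
  have hδ := delta_ne hS
  obtain ⟨y, hyw, hy0, hey, heJy, hy⟩ := step_dir hS hn hH hC he hw hew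
  have heJJy : sform hf (J *ᵥ e) y = 0 := by rw [hS.adj, heJy, neg_zero]
  set b := bform hQ (J *ᵥ e) y with hb
  have hb0 : b ≠ 0 := by
    rw [hb, hS.bform_eq, hS.sform_J_J]
    exact mul_ne_zero hS.two (mul_ne_zero (neg_ne_zero.2 hδ) hey)
  have heyb : bform hQ e y = 0 := by rw [hS.bform_eq, heJy, mul_zero]
  obtain ⟨z, hzP, hz⟩ : ∃ z ∈ perp hQ (kline J e ⊔ kline J y), qJform f J z ≠ 0 := by
    by_contra hc
    push Not at hc
    set P := kline J e ⊔ kline J y
    have hle := le_perp_self hQ (S := perp hQ P) hc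
    rw [perp_perp hQ] at hle
    obtain ⟨z, hz, hz0⟩ := Submodule.exists_mem_ne_zero_of_ne_bot (p := perp hQ P) (fun h0 => by
      have := finrank_perp_add hQ P
      rw [h0, finrank_bot] at this
      have : finrank F P ≤ finrank F (kline J e) + finrank F (kline J y) :=
        Submodule.finrank_add_le_finrank_add_finrank (kline J e) (kline J y)
      have := hK.finrank_kline_le e
      have := hK.finrank_kline_le y
      omega)
    obtain ⟨_, h1, _, h2, rfl⟩ := Submodule.mem_sup.1 (hle hz)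
    obtain ⟨r, s, rfl⟩ := mem_kline.1 h1
    obtain ⟨r', s', rfl⟩ := mem_kline.1 h2
    have fl : ∀ v w, bform hQ v (J *ᵥ w) = - bform hQ (J *ᵥ v) w := fun v w => by
      rw [hK.adj]; ring
    have hJe : bform hQ (J *ᵥ e) e = 0 := by rw [b_symm hQ, hK.bJ]; ring
    have hJy : bform hQ (J *ᵥ y) y = 0 := by rw [b_symm hQ, hK.bJ]; ring
    have hJye : bform hQ (J *ᵥ y) e = -b := by rw [b_symm hQ, fl, hb]
    have g : ∀ v, v ∈ P → bform hQ v (r • e + s • (J *ᵥ e) + (r' • y + s' • (J *ᵥ y))) = 0 := fun v hv => hz v hv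
    have g1 := g e (Submodule.mem_sup_left (self_mem_kline e))
    have g2 := g (J *ᵥ e) (Submodule.mem_sup_left (J_mem_kline e))
    have g3 := g y (Submodule.mem_sup_right (self_mem_kline y))
    have g4 := g (J *ᵥ y) (Submodule.mem_sup_right (J_mem_kline y))
    simp only [map_add, map_smul, smul_eq_mul, fl e, fl y, fl (J *ᵥ e), fl (J *ᵥ y), hS.sq, LinearMap.smul_apply,
      b_self hQ, he0, hy0, hJe, hJy, heyb, b_symm hQ y e, ← hb, hJye, qJ_J hS, mul_zero, add_zero, zero_add,
      neg_zero, neg_neg, mul_neg, neg_eq_zero, mul_eq_zero, hb0, or_false] at g1 g2 g3 g4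
    refine hz0 ?_
    simp [g1, g2, g3, g4]
  rw [perp_sup hQ, Submodule.mem_inf] at hzP
  set x₀ := (-(qJform f J z / b)) • (J *ᵥ e) + y + z with hx₀
  have hx₀Q : qJform f J x₀ = 0 := by
    rw [hx₀, q_add hQ, q_add hQ, q_smul hQ, qJ_J hS, he0, hy0]
    simp only [map_smul, map_add, LinearMap.add_apply, LinearMap.smul_apply, hzP.1 _ (J_mem_kline e),
      hzP.2 _ (self_mem_kline y), ← hb, smul_eq_mul]
    field_simp
    ring
  have hex₀ : sform hf e (J *ᵥ x₀) = 0 := by
    have h1 : bform hQ e x₀ = 0 := by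
      rw [hx₀, map_add, map_add, map_smul, hK.bJ, heyb, hzP.1 _ (self_mem_kline e)]
      simp
    rw [hS.bform_eq] at h1
    exact (mul_eq_zero.1 h1).resolve_left hS.two
  have hex₀' : sform hf e x₀ ≠ 0 := fun h0 => by
    have h1 : bform hQ (J *ᵥ e) x₀ = b := by
      rw [hx₀, map_add, map_add, map_smul, b_self hQ, qJ_J hS, he0, hzP.1 _ (J_mem_kline e), ← hb]
      simp
    rw [hS.bform_eq, hS.sform_J_J, h0, mul_zero, mul_zero] at h1
    exact hb0 h1.symm
  have hx₀y : sform hf x₀ (J *ᵥ y) ≠ 0 := fun h0 => by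
    have h1 : bform hQ x₀ y = -(qJform f J z / b) * b := by
      rw [b_symm hQ, hx₀, map_add, map_add, map_smul, b_symm hQ y (J *ᵥ e), ← hb, b_self hQ, hy0,
        hzP.2 _ (self_mem_kline y)]
      simp
    rw [hS.bform_eq, h0, mul_zero, neg_mul, div_mul_cancel₀ _ hb0, eq_comm, neg_eq_zero] at h1
    exact hz h1
  obtain ⟨x, hxK, hx0, hex, hexJ, hx⟩ := step_dir hS hn hH hC he hx₀Q (Or.inl hex₀')
  obtain ⟨r, s, hxe⟩ := mem_kline.1 hxK
  have hs : s = 0 := by
    rw [← hxe, Matrix.mulVec_add, Matrix.mulVec_smul, Matrix.mulVec_smul, hS.sq, map_add, map_smul, map_smul,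
      map_smul, hex₀] at hexJ
    simp only [smul_eq_mul, mul_zero, zero_add, mul_eq_zero, hex₀', hδ, or_false] at hexJ
    exact hexJ
  rw [hs, zero_smul, add_zero] at hxe
  have hr : r ≠ 0 := fun h0 => hex (by rw [← hxe, h0, zero_smul, map_zero])
  have hxy : sform hf x (J *ᵥ y) ≠ 0 := by
    rw [← hxe, map_smul, LinearMap.smul_apply]; exact mul_ne_zero hr hx₀y
  obtain ⟨y₂, hy₂w, hy₂0, hxy₂, hxJy₂, hy₂⟩ := step_dir hS hn hH hC hx hw (by
    by_contra hc
    push Not at hc
    obtain ⟨a', b', e'⟩ := mem_kline.1 hyw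
    refine hxy ?_
    rw [← e', Matrix.mulVec_add, Matrix.mulVec_smul, Matrix.mulVec_smul, hS.sq, map_add, map_smul, map_smul,
      map_smul, hc.1, hc.2]
    simp)
  have hy0' : y ≠ 0 := fun h0 => hey (by rw [h0, map_zero])
  -- coordinates in the basis `y, J y`
  obtain ⟨α₂, β₂, hy₂e⟩ : ∃ α₂ β₂ : F, α₂ • y + β₂ • (J *ᵥ y) = y₂ := by
    have hle : kline J w ≤ kline J y := by
      rw [kline_le_iff]
      have hwy : w ∈ kline J y := by
        by_contra hc
        exact hK.kline_symm hc hy0' hyw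
      exact ⟨hwy, hK.J_stable hwy⟩
    exact mem_kline.1 (hle hy₂w)
  have hβ₂ : β₂ ≠ 0 := fun h0 => by
    rw [← hy₂e, h0, zero_smul, add_zero, Matrix.mulVec_smul, map_smul, smul_eq_mul, mul_eq_zero] at hxJy₂
    rcases hxJy₂ with h1 | h1
    · exact hxy₂ (by rw [← hy₂e, h0, h1]; simp)
    · exact hxy h1
  have hyy₂ : sform hf y y₂ = 0 := by
    rw [← hy₂e, map_add, map_smul, map_smul, sform_self hf, (hS.iso_iff y).1 hy0]
    simp
  intro T hT
  obtain ⟨α, β, rfl⟩ : ∃ α β : F, α • y + β • y₂ = T := by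
    have hle : kline J w ≤ kline J y := by
      rw [kline_le_iff]
      have hwy : w ∈ kline J y := by
        by_contra hc
        exact hK.kline_symm hc hy0' hyw
      exact ⟨hwy, hK.J_stable hwy⟩
    obtain ⟨a₁, b₁, e₁⟩ := mem_kline.1 (hle hT)
    refine ⟨a₁ - b₁ / β₂ * α₂, b₁ / β₂, ?_⟩
    rw [← e₁, ← hy₂e, smul_add, smul_smul, smul_smul, div_mul_cancel₀ _ hβ₂]
    module
  by_cases hT0 : α • y + β • y₂ = 0
  · intro c
    rw [hT0, show sympT hf (0 : ι → F) c = 1 from ext_mulVec fun x => by rw [sympT_mulVec]; simp]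
    exact H.one_mem
  set T := α • y + β • y₂ with hTd
  -- a centre pairing non-trivially with three given vectors
  have hsep : sform hf e T ≠ 0 ∨ sform hf x T ≠ 0 := by
    by_contra hc
    push Not at hc
    have hTy : T = (α + β * α₂) • y + (β * β₂) • (J *ᵥ y) := by rw [hTd, ← hy₂e]; module
    have e1 := hc.1
    rw [hTy, map_add, map_smul, map_smul, heJy, smul_zero, add_zero, smul_eq_mul, mul_eq_zero] at e1
    have e2 := e1.resolve_right hey
    have e3 := hc.2
    rw [hTy, e2, zero_smul, zero_add, map_smul, smul_eq_mul, mul_eq_zero] at e3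
    exact hT0 (by rw [hTy, e2, e3.resolve_right hxy, zero_smul, zero_smul, add_zero])
  obtain ⟨z, hz, hzy, hzy₂, hzT⟩ : ∃ z, (∀ c : F, sympT hf z c ∈ H) ∧ sform hf z y ≠ 0 ∧ sform hf z y₂ ≠ 0 ∧
      sform hf z T ≠ 0 := by
    by_contra hc
    push Not at hc
    have hz : ∀ k : F, sform hf (x + k • e) y = 0 ∨ sform hf (x + k • e) y₂ = 0 ∨ sform hf (x + k • e) T = 0 :=
      fun k => by
        have := hc _ (group_add hH hx he (by rw [sform_skew hf, neg_ne_zero]; exact hex) k)
        tauto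
    have he' : sform hf e y₂ = 0 ∨ sform hf e T = 0 := by
      have := hc e he hey
      tauto
    simp only [map_add, map_smul, LinearMap.add_apply, LinearMap.smul_apply, smul_eq_mul] at hz
    have once : ∀ {a b k l : F}, (a ≠ 0 ∨ b ≠ 0) → b + k * a = 0 → b + l * a = 0 → k = l := by
      intro a b k l hab h1 h2
      have : (k - l) * a = 0 := by linear_combination h1 - h2
      rcases mul_eq_zero.1 this with h | h
      · exact sub_eq_zero.1 h
      · rw [h, mul_zero, add_zero] at h1; exact absurd h1 (hab.resolve_left (fun g => g h))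
    have n1 : (1 : F) ≠ -1 := fun h => hS.two (by linear_combination h)
    have n0 : (0 : F) ≠ -1 := fun h => one_ne_zero (α := F) (by linear_combination h)
    rcases he' with h' | h'
    · have h2' : sform hf x y₂ ≠ 0 := hxy₂
      have hz' : ∀ k : F, sform hf x y + k * sform hf e y = 0 ∨ sform hf x T + k * sform hf e T = 0 := fun k => by
        rcases hz k with h1 | h1 | h1
        · exact Or.inl h1
        · rw [h', mul_zero, add_zero] at h1; exact absurd h1 h2'
        · exact Or.inr h1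
      rcases hz' 0 with a0 | a0 <;> rcases hz' 1 with a1 | a1 <;> rcases hz' (-1) with a2 | a2 <;>
        first
        | exact zero_ne_one (once (Or.inl hey) a0 a1) | exact n0 (once (Or.inl hey) a0 a2)
        | exact n1 (once (Or.inl hey) a1 a2) | exact zero_ne_one (once hsep a0 a1)
        | exact n0 (once hsep a0 a2) | exact n1 (once hsep a1 a2)
    · have h2' : sform hf x T ≠ 0 := hsep.resolve_left (fun g => g h')
      have hz' : ∀ k : F, sform hf x y + k * sform hf e y = 0 ∨ sform hf x y₂ + k * sform hf e y₂ = 0 := fun k => by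
        rcases hz k with h1 | h1 | h1
        · exact Or.inl h1
        · exact Or.inr h1
        · rw [h', mul_zero, add_zero] at h1; exact absurd h1 h2'
      have hxy₂' : sform hf e y₂ ≠ 0 ∨ sform hf x y₂ ≠ 0 := Or.inr hxy₂
      rcases hz' 0 with a0 | a0 <;> rcases hz' 1 with a1 | a1 <;> rcases hz' (-1) with a2 | a2 <;>
        first
        | exact zero_ne_one (once (Or.inl hey) a0 a1) | exact n0 (once (Or.inl hey) a0 a2)
        | exact n1 (once (Or.inl hey) a1 a2) | exact zero_ne_one (once hxy₂' a0 a1)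
        | exact n0 (once hxy₂' a0 a2) | exact n1 (once hxy₂' a1 a2)
  intro c
  have h1 := group_add hH hz hy hzy α
  have hne : sform hf (z + α • y) y₂ ≠ 0 := by
    simp only [map_add, map_smul, LinearMap.add_apply, LinearMap.smul_apply, smul_eq_mul, hyy₂, mul_zero, add_zero]
    exact hzy₂
  have h2 := group_add hH h1 hy₂ hne β
  have hne2 : sform hf (z + α • y + β • y₂) z ≠ 0 := by
    rw [show z + α • y + β • y₂ = z + T by rw [hTd, add_assoc], map_add, LinearMap.add_apply, sform_self hf,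
      zero_add, sform_skew hf, neg_ne_zero]
    exact hzT
  have := group_add hH h2 hz hne2 (-1) c
  rwa [show z + α • y + β • y₂ + (-1 : F) • z = T by rw [hTd]; module] at this

/-- One transvection group gives all transvections. -/
lemma all_of_group {v : ι → F} (hv0 : v ≠ 0) (h : ∀ c : F, sympT hf v c ∈ H) : ∀ x c, sympT hf x c ∈ H := by
  obtain ⟨e, he0, heQ, he⟩ := iso_group_of_group hS hn hH hC hv0 h
  have hQ := hS.isNondeg
  have hiso : ∀ w, qJform f J w = 0 → ∀ c : F, sympT hf w c ∈ H := by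
    intro w hw
    by_cases hw0 : w = 0
    · subst hw0
      intro c
      rw [show sympT hf (0 : ι → F) c = 1 from ext_mulVec fun x => by rw [sympT_mulVec]; simp]
      exact H.one_mem
    have fill := @fill_line _ _ _ _ _ _ _ _ _ _ hS hn _ hH hC
    by_cases hew : sform hf e w ≠ 0 ∨ sform hf e (J *ᵥ w) ≠ 0
    · exact fill heQ he hw hew w (self_mem_kline w)
    push Not at hew
    obtain ⟨u₁, hu₁, heu₁⟩ := exists_iso_not_orth hS hn he0
    obtain ⟨u₂, hu₂, hwu₂⟩ := exists_iso_not_orth hS hn hw0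
    rw [flip hS] at hwu₂
    have hu₁e := fill heQ he hu₁ (Or.inr heu₁) u₁ (self_mem_kline u₁)
    by_cases h1 : sform hf u₁ w ≠ 0 ∨ sform hf u₁ (J *ᵥ w) ≠ 0
    · exact fill hu₁ hu₁e hw h1 w (self_mem_kline w)
    by_cases h2 : sform hf e u₂ ≠ 0 ∨ sform hf e (J *ᵥ u₂) ≠ 0
    · exact fill hu₂ (fill heQ he hu₂ h2 u₂ (self_mem_kline u₂)) hw (Or.inr hwu₂) w (self_mem_kline w)
    by_cases h3 : sform hf u₁ u₂ ≠ 0 ∨ sform hf u₁ (J *ᵥ u₂) ≠ 0
    · exact fill hu₂ (fill hu₁ hu₁e hu₂ h3 u₂ (self_mem_kline u₂)) hw (Or.inr hwu₂) w (self_mem_kline w)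
    push Not at h1 h2 h3
    have hsum : qJform f J (u₁ + u₂) = 0 := by
      rw [q_add hQ, hu₁, hu₂, hS.bform_eq, h3.2]; ring
    exact fill hsum (fill heQ he hsum (Or.inr (by rw [Matrix.mulVec_add, map_add, h2.2, add_zero]; exact heu₁))
      (u₁ + u₂) (self_mem_kline _)) hw (Or.inr (by rw [map_add, LinearMap.add_apply, h1.2, zero_add]; exact hwu₂))
      w (self_mem_kline w)
  intro x c
  by_cases hx : qJform f J x = 0
  · exact hiso x hx c
  have hx0 : x ≠ 0 := by rintro rfl; exact hx (q_zero hQ)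
  obtain ⟨d, hdP, hdQ, hxd⟩ := exists_singular_b_one_small hQ hS.two (Submodule.span F {x - J *ᵥ x}) (c := x) (by
    intro hm
    obtain ⟨t, ht⟩ := Submodule.mem_span_singleton.1 hm
    obtain ⟨a1, a2⟩ := hS.kstr.indep hx0 (r := 1 - t) (s := t) (by linear_combination (norm := module) (-1 : F) • ht)
    rw [a2] at a1
    simp at a1) (by
    have : finrank F (Submodule.span F ({x - J *ᵥ x} : Set (ι → F))) ≤ 1 := (finrank_span_le_card _).trans (by simp)
    omega)
  rw [mem_perp_span_singleton hQ, map_sub, LinearMap.sub_apply, hxd, sub_eq_zero, eq_comm] at hdP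
  set d' := qJform f J x • d with hd'
  have hd'Q : qJform f J d' = 0 := by rw [hd', q_smul hQ, hdQ, mul_zero]
  have hwQ : qJform f J (x - d') = 0 := by rw [q_sub hQ, hd'Q, hd', map_smul, hxd, smul_eq_mul]; ring
  have hne : sform hf (x - d') d' ≠ 0 := by
    rw [map_sub, LinearMap.sub_apply, sform_self hf, sub_zero, hd', map_smul, smul_eq_mul]
    refine mul_ne_zero hx fun h0 => ?_
    rw [hS.bform_eq, hS.sform_J_J, h0, mul_zero, mul_zero] at hdP
    exact zero_ne_one hdP
  have := group_add hH (hiso _ hwQ) (hiso _ hd'Q) hne 1 c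
  rwa [one_smul, sub_add_cancel] at this

omit hH hC in
/-- An isometry mapping singular `K`-lines to `K`-lines normalises the field. -/
lemma conj_J_eq {g : GL ι F} (hgI : ∀ x y, f ((g : Matrix ι ι F) *ᵥ x) ((g : Matrix ι ι F) *ᵥ y) = f x y)
    (hg : ∀ v, qJform f J v = 0 → (g : Matrix ι ι F) *ᵥ (J *ᵥ v) ∈ kline J ((g : Matrix ι ι F) *ᵥ v)) :
    ∃ r s : F, s ≠ 0 ∧
      ((g⁻¹ : GL ι F) : Matrix ι ι F) * J * (g : Matrix ι ι F) = r • (1 : Matrix ι ι F) + s • J := by
  have hQ := hS.isNondeg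
  have hK := hS.kstr
  set J' := ((g⁻¹ : GL ι F) : Matrix ι ι F) * J * (g : Matrix ι ι F) with hJ'
  have hJ'v : ∀ v, (g : Matrix ι ι F) *ᵥ (J' *ᵥ v) = J *ᵥ ((g : Matrix ι ι F) *ᵥ v) := fun v => by
    rw [hJ']; simp only [← Matrix.mulVec_mulVec, mulVec_inv_mulVec]
  have ginj : ∀ {x y : ι → F}, (g : Matrix ι ι F) *ᵥ x = (g : Matrix ι ι F) *ᵥ y → x = y := fun {x y} h => by
    rw [← inv_mulVec_mulVec g x, h, inv_mulVec_mulVec]
  have hsq : ∀ v, J' *ᵥ (J' *ᵥ v) = δ • v := fun v => ginj (by rw [hJ'v, hJ'v, hS.sq, Matrix.mulVec_smul])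
  have hadj : ∀ x y, sform hf (J' *ᵥ x) y = - sform hf x (J' *ᵥ y) := fun x y => by
    rw [sform_apply, sform_apply, ← hgI, ← hgI x, hJ'v, hJ'v, ← sform_apply hf, ← sform_apply hf, hS.adj]
  have hloc : ∀ v, qJform f J v = 0 → v ≠ 0 → ∃ p r : F, r ≠ 0 ∧ J' *ᵥ v = p • v + r • (J *ᵥ v) := by
    intro v hv hv0
    obtain ⟨a, b, e⟩ := mem_kline.1 (hg v hv)
    have hb : b ≠ 0 := by
      intro h0
      rw [h0, zero_smul, add_zero, ← Matrix.mulVec_smul] at e
      exact one_ne_zero (neg_eq_zero.1 (hK.indep hv0 (r := a) (s := -1) (by rw [← ginj e]; module)).2)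
    refine ⟨-(b⁻¹ * a), b⁻¹, inv_ne_zero hb, ginj ?_⟩
    rw [hJ'v, Matrix.mulVec_add, Matrix.mulVec_smul, Matrix.mulVec_smul, ← e]
    match_scalars <;> field_simp <;> ring
  have pair : ∀ u v, qJform f J u = 0 → qJform f J v = 0 → u ≠ 0 → v ∉ kline J u → sform hf u (J *ᵥ v) = 0 →
      ∀ p r p' r' : F, J' *ᵥ u = p • u + r • (J *ᵥ u) → J' *ᵥ v = p' • v + r' • (J *ᵥ v) → p = p' ∧ r = r' := by
    intro u v hu hv hu0 hind huv p r p' r' e e'
    have hs : qJform f J (u + v) = 0 := by rw [q_add hQ, hu, hv, hS.bform_eq, huv]; ring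
    have hs0 : u + v ≠ 0 := fun h0 => hind (by
      rw [eq_neg_of_add_eq_zero_right h0]; exact Submodule.neg_mem _ (self_mem_kline u))
    obtain ⟨a, b, -, e3⟩ := hloc (u + v) hs hs0
    rw [Matrix.mulVec_add, e, e', Matrix.mulVec_add] at e3
    have h4 : (p - a) • u + (r - b) • (J *ᵥ u) = (a - p') • v + (b - r') • (J *ᵥ v) := by
      linear_combination (norm := module) e3
    have hm : (a - p') • v + (b - r') • (J *ᵥ v) ∈ kline J u := h4 ▸ mem_kline.2 ⟨_, _, rfl⟩
    have hb0 : b - r' = 0 := by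
      by_contra hb
      refine hind (hK.mem_of_J_eq (t := -((b - r')⁻¹ * (a - p'))) (Submodule.smul_mem _ (b - r')⁻¹ hm) ?_)
      rw [smul_add, smul_smul, smul_smul, inv_mul_cancel₀ hb, one_smul]
      module
    rw [hb0, zero_smul, add_zero] at h4 hm
    have ha0 : a - p' = 0 := by
      by_contra ha
      exact hind ((Submodule.smul_mem_iff _ ha).1 hm)
    rw [ha0, zero_smul] at h4
    obtain ⟨h5, h6⟩ := hK.indep hu0 h4
    exact ⟨by linear_combination h5 + ha0, by linear_combination h6 + hb0⟩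
  have line : ∀ u, qJform f J u = 0 → u ≠ 0 → ∃ r : F, r * r = 1 ∧ ∀ z ∈ kline J u, J' *ᵥ z = r • (J *ᵥ z) := by
    intro u hu hu0
    obtain ⟨v, hvP, hv, hJuv⟩ := exists_singular_b_one_small hQ hS.two (Submodule.span F {u}) (c := J *ᵥ u) (by
      intro hm
      obtain ⟨t, ht⟩ := Submodule.mem_span_singleton.1 hm
      exact one_ne_zero (hK.indep hu0 (r := -t) (s := 1) (by rw [← ht]; module)).2) (by
      rw [finrank_span_singleton hu0]; omega)
    rw [mem_perp_span_singleton hQ, hS.bform_eq, mul_eq_zero] at hvP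
    have huv := hvP.resolve_left hS.two
    have huv' : sform hf u v ≠ 0 := fun h0 => by
      rw [hS.bform_eq, hS.sform_J_J, h0, mul_zero, mul_zero] at hJuv
      exact zero_ne_one hJuv
    have hind : v ∉ kline J u := fun hm => huv' (by
      obtain ⟨a, b, rfl⟩ := mem_kline.1 hm
      rw [map_add, map_smul, map_smul, sform_self hf, (hS.iso_iff u).1 hu]
      simp)
    have hv0 : v ≠ 0 := fun h0 => hind (h0 ▸ zero_mem _)
    obtain ⟨p, r, hr, e⟩ := hloc u hu hu0
    obtain ⟨p', r', -, e'⟩ := hloc v hv hv0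
    obtain ⟨rfl, rfl⟩ := pair u v hu hv hu0 hind huv p r p' r' e e'
    have h1 := hadj u v
    rw [e, e', map_add, map_smul, map_smul, LinearMap.add_apply, LinearMap.smul_apply, LinearMap.smul_apply,
      map_add, map_smul, map_smul, hS.adj, huv] at h1
    simp only [smul_eq_mul] at h1
    have hp : p = 0 :=
      (mul_eq_zero.1 (show (2 * p) * sform hf u v = 0 by linear_combination h1)).resolve_right huv' |>
        fun h => (mul_eq_zero.1 h).resolve_left hS.two
    rw [hp, zero_smul, zero_add] at e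
    have eJ : J' *ᵥ (J *ᵥ u) = (δ / r) • u := by
      have h2 := hsq u
      rw [e, Matrix.mulVec_smul] at h2
      rw [div_eq_inv_mul, ← smul_smul, ← h2, inv_smul_smul₀ hr]
    have hrr : r * r = 1 := by
      obtain ⟨r₂, h2, e2⟩ : ∃ r₂ : F, r₂ * δ = δ / r ∧ True := ⟨(δ / r) / δ, div_mul_cancel₀ _ (delta_ne hS), trivial⟩
      have hJu : J *ᵥ u ≠ 0 := fun h0 => one_ne_zero (hK.indep hu0 (r := 0) (s := 1) (by rw [h0]; simp)).2
      have hJuQ : qJform f J (J *ᵥ u) = 0 := by rw [qJ_J hS, hu, mul_zero]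
      obtain ⟨q₁, r₁, -, e₁⟩ := hloc (u + J *ᵥ u) (by rw [q_add hQ, hu, hJuQ, hK.bJ, hu]; ring) (fun h0 =>
        one_ne_zero (hK.indep hu0 (r := 1) (s := 1) (by rw [one_smul, one_smul, h0])).1)
      have h3 := hadj (J *ᵥ u) v
      rw [eJ, e', hp, zero_smul, zero_add, map_smul, LinearMap.smul_apply, map_smul, hS.sform_J_J] at h3
      simp only [smul_eq_mul] at h3
      have h4 : (δ / r - δ * r) * sform hf u v = 0 := by linear_combination h3
      have h5 := (mul_eq_zero.1 h4).resolve_right huv'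
      field_simp at h5
      exact mul_left_cancel₀ (delta_ne hS) (by linear_combination -h5)
    refine ⟨r, hrr, fun z hz => ?_⟩
    obtain ⟨a, b, rfl⟩ := mem_kline.1 hz
    simp only [Matrix.mulVec_add, Matrix.mulVec_smul, e, eJ, hS.sq]
    match_scalars
    · ring
    · field_simp
      linear_combination -(b * δ) * hrr
  obtain ⟨v₀, -, hv₀0, hv₀⟩ := exists_singular hQ (S := ⊤) (by rw [finrank_top, finrank_fintype_fun_eq_card]; omega)
  obtain ⟨r, hrr, e₀⟩ := line v₀ hv₀ hv₀0
  have hsing : ∀ v, qJform f J v = 0 → J' *ᵥ v = r • (J *ᵥ v) := by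
    intro v hv
    by_cases hmem : v ∈ kline J v₀
    · exact e₀ v hmem
    have hv0 : v ≠ 0 := fun h0 => hmem (h0 ▸ zero_mem _)
    obtain ⟨r', -, e'⟩ := line v hv hv0
    suffices h : ∀ w ∈ kline J v, qJform f J w = 0 → w ∉ kline J v₀ → sform hf v₀ (J *ᵥ w) = 0 → r = r' by
      have hJv : J *ᵥ v ∉ kline J v₀ := fun hm => hmem (hK.mem_of_J_eq (t := 0) hm (by simp))
      by_cases hA : sform hf v₀ (J *ᵥ v) = 0
      · rw [h v (self_mem_kline v) hv hmem hA]; exact e' v (self_mem_kline v)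
      · set w := sform hf v₀ v • v + (-(sform hf v₀ (J *ᵥ v) / δ)) • (J *ᵥ v) with hw
        have hwQ : qJform f J w = 0 := by
          rw [hw, q_add hQ, q_smul hQ, q_smul hQ, qJ_J hS, hv, map_smul, map_smul, LinearMap.smul_apply, hK.bJ, hv]
          simp
        have hwN : w ∉ kline J v₀ := fun hm => by
          refine hmem (hK.mem_of_J_eq (t := sform hf v₀ v * δ / sform hf v₀ (J *ᵥ v))
            (Submodule.smul_mem _ (-(δ / sform hf v₀ (J *ᵥ v))) hm) ?_)
          rw [hw]
          match_scalars <;> field_simp [delta_ne hS] <;> ring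
        rw [h w (mem_kline.2 ⟨_, _, rfl⟩) hwQ hwN (by
          rw [hw, Matrix.mulVec_add, Matrix.mulVec_smul, Matrix.mulVec_smul, hS.sq, map_add, map_smul, map_smul,
            map_smul]
          simp only [smul_eq_mul]
          field_simp [delta_ne hS]
          ring)]
        exact e' v (self_mem_kline v)
    intro w hwK hw hwN hA
    exact (pair v₀ w hv₀ hw hv₀0 hwN hA 0 r 0 r' (by rw [zero_smul, zero_add]; exact e₀ v₀ (self_mem_kline v₀))
      (by rw [zero_smul, zero_add]; exact e' w hwK)).2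
  refine ⟨0, r, fun h => by rw [h, mul_zero] at hrr; exact zero_ne_one hrr, Matrix.ext_of_mulVec_single fun i => ?_⟩
  generalize (Pi.single i 1 : ι → F) = x
  rw [zero_smul, zero_add, Matrix.smul_mulVec]
  by_cases hx : qJform f J x = 0
  · exact hsing x hx
  have hx0 : x ≠ 0 := by rintro rfl; exact hx (q_zero hQ)
  obtain ⟨d, hd, hxd⟩ := exists_iso_one hS hn hx0
  have hwQ : qJform f J (x - qJform f J x • d) = 0 := by
    rw [q_sub hQ, q_smul hQ, hd, map_smul, hxd, smul_eq_mul]; ring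
  have h1 := hsing _ hwQ
  have h2 := hsing _ hd
  rw [Matrix.mulVec_sub, Matrix.mulVec_sub, Matrix.mulVec_smul, Matrix.mulVec_smul, h2] at h1
  linear_combination (norm := module) h1

omit hH hC in
/-- The normaliser in the symplectic group of the field generated by `J` is maximal. -/
theorem unitaryOverfield_isMaximal (G P : Subgroup (GL ι F))
    (hG : ∀ g, g ∈ G ↔ ∀ x y, f ((g : Matrix ι ι F) *ᵥ x) ((g : Matrix ι ι F) *ᵥ y) = f x y)
    (hP : ∀ g, g ∈ P ↔ g ∈ G ∧
      ∃ r s : F, s ≠ 0 ∧ ((g⁻¹ : GL ι F) : Matrix ι ι F) * J * (g : Matrix ι ι F) = r • (1 : Matrix ι ι F) + s • J) :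
    Cfsg.Geo.IsMaximalIn G P := by
  have hK := hS.kstr
  refine ⟨lt_of_le_not_ge (fun g hg => ((hP g).1 hg).1) fun hle => ?_, fun M hPM hMG => ?_⟩
  · obtain ⟨v, -, hv0, hv⟩ := exists_singular hS.isNondeg (S := ⊤) (by rw [finrank_top, finrank_fintype_fun_eq_card]; omega)
    obtain ⟨y, hy⟩ : ∃ y, sform hf y v = 1 := by
      obtain ⟨⟨x, hx⟩, -⟩ := hf.nondegenerate v hv0
      exact ⟨(f x v)⁻¹ • x, by rw [map_smul, LinearMap.smul_apply, smul_eq_mul, sform_apply, inv_mul_cancel₀ hx]⟩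
    set g := sympT hf v 1
    obtain ⟨-, r, s, -, hrs⟩ := (hP _).1 (hle ((hG g).2 (sympT_preserves hf v 1)))
    have hgJ : ∀ x, J *ᵥ ((g : Matrix ι ι F) *ᵥ x) = (g : Matrix ι ι F) *ᵥ (r • x + s • (J *ᵥ x)) := by
      intro x
      have h1 := congrArg (fun A => (g : Matrix ι ι F) * A) hrs
      simp only [← mul_assoc, Units.mul_inv, one_mul] at h1
      have h2 := congrArg (fun A => A *ᵥ x) h1
      simp only [← Matrix.mulVec_mulVec, Matrix.add_mulVec, Matrix.smul_mulVec, Matrix.one_mulVec] at h2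
      exact h2
    have hJv : sform hf (J *ᵥ v) v = 0 := sform_comm_zero hf ((hS.iso_iff v).1 hv)
    have h1 := hgJ v
    simp only [g, tv_mulVec hf, map_add, map_smul, LinearMap.add_apply, LinearMap.smul_apply, sform_self hf, hJv,
      smul_zero, add_zero, mul_zero, zero_smul] at h1
    obtain ⟨hr, hs⟩ := hK.indep hv0 (r := -r) (s := 1 - s) (by linear_combination (norm := module) h1)
    have h2 := hgJ y
    rw [show r = 0 from neg_eq_zero.1 hr, show s = 1 by linear_combination -hs] at h2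
    simp only [g, tv_mulVec hf, zero_smul, zero_add, one_smul, Matrix.mulVec_add, one_mul, hy] at h2
    exact one_ne_zero (hK.indep hv0 (r := -(sform hf (J *ᵥ y) v)) (s := 1)
      (by linear_combination (norm := module) h2)).2
  by_cases hMP : M ≤ P
  · exact Or.inl (le_antisymm hMP hPM)
  refine Or.inr (le_antisymm hMG ?_)
  have hMI : ∀ g ∈ M, ∀ x y, f ((g : Matrix ι ι F) *ᵥ x) ((g : Matrix ι ι F) *ᵥ y) = f x y :=
    fun g hg => (hG g).1 (hMG hg)
  have hC : ∀ g : GL ι F, (∀ x y, f ((g : Matrix ι ι F) *ᵥ x) ((g : Matrix ι ι F) *ᵥ y) = f x y) →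
      (g : Matrix ι ι F) * J = J * (g : Matrix ι ι F) → g ∈ M := fun g hI hc =>
    hPM ((hP g).2 ⟨(hG g).2 hI, 0, 1, one_ne_zero, by
      rw [zero_smul, zero_add, one_smul, mul_assoc, ← hc, ← mul_assoc, Units.inv_mul, one_mul]⟩)
  obtain ⟨g, hgM, hgP⟩ := SetLike.not_le_iff_exists.1 hMP
  have hgI := hMI g hgM
  obtain ⟨v, hv, hvn⟩ : ∃ v, qJform f J v = 0 ∧ (g : Matrix ι ι F) *ᵥ (J *ᵥ v) ∉ kline J ((g : Matrix ι ι F) *ᵥ v) := by
    by_contra hc
    push Not at hc
    exact hgP ((hP g).2 ⟨hMG hgM, conj_J_eq hS hn hgI hc⟩)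
  obtain ⟨w, hw0, hw⟩ := group_of_root hS hn hMI hC hvn (by
      rw [sform_apply, hgI]; exact hv) (fun r => by
    have := M.mul_mem (M.mul_mem hgM (kT_mem hS hn hMI hC hv r)) (M.inv_mem hgM)
    rwa [kT, show g * (sympT hf (J *ᵥ v) r * sympT hf v (-(r * δ))) * g⁻¹ =
      (g * sympT hf (J *ᵥ v) r * g⁻¹) * (g * sympT hf v (-(r * δ)) * g⁻¹) by group,
      conj_sympT hf hgI, conj_sympT hf hgI] at this)
  exact fun x hx => mem_of_preserves hf M (all_of_group hS hn hMI hC hw0 hw) x ((hG x).1 hx)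

end CfsgLib.SympGeo.Six
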