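import Cfsg.Agent.Classical.AltFormTransv

/-! Rank two root elements `x ↦ x + f x a • b + f x b • a` of a symplectic form given as a function. -/

set_option autoImplicit false
set_option linter.unusedSectionVars false

namespace CfsgLib.SympGeo

open Matrix Module CfsgLib.TransvGL CfsgLib.AltFormTransv
open scoped MatrixGroups

variable {ι : Type} [Fintype ι] [DecidableEq ι] {F : Type*} [Field F]
variable {f : (ι → F) → (ι → F) → F} (hf : Cfsg.Geo.IsSymplecticForm f)
include hf

/-- The bilinear form. -/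
noncomputable def sform : LinearMap.BilinForm F (ι → F) :=
  LinearMap.mk₂ F f hf.bilinear.add_left (fun c x v => by simpa [smul_eq_mul] using hf.bilinear.smul_left c x v)
    hf.bilinear.add_right (fun c x v => by simpa [smul_eq_mul] using hf.bilinear.smul_right c x v)

omit [DecidableEq ι] in
lemma sform_apply (x y : ι → F) : sform hf x y = f x y := rfl

omit [DecidableEq ι] in
lemma sform_skew (x y : ι → F) : sform hf x y = - sform hf y x := hf.skew x y

omit [DecidableEq ι] in
lemma sform_self (x : ι → F) : sform hf x x = 0 := hf.alternating x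

omit [DecidableEq ι] in
lemma sform_comm_zero {x y : ι → F} (h : sform hf x y = 0) : sform hf y x = 0 := by
  rw [sform_skew hf, h, neg_zero]

omit [DecidableEq ι] in
lemma sform_refl : (sform hf).IsRefl := fun _ _ h => sform_comm_zero hf h

omit [DecidableEq ι] in
lemma sform_nondeg : (sform hf).Nondegenerate := by
  constructor <;> intro x h <;> by_contra hx
  · obtain ⟨-, y, hy⟩ := hf.nondegenerate x hx
    exact hy (h y)
  · obtain ⟨⟨y, hy⟩, -⟩ := hf.nondegenerate x hx
    exact hy (h y)

omit [DecidableEq ι] in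
lemma finrank_sperp_add (W : Submodule F (ι → F)) :
    finrank F ((sform hf).orthogonal W) + finrank F W = Fintype.card ι := by
  have h := Submodule.finrank_le W
  rw [finrank_fintype_fun_eq_card] at h
  rw [LinearMap.BilinForm.finrank_orthogonal (sform_nondeg hf), finrank_fintype_fun_eq_card]
  omega

omit [DecidableEq ι] in
lemma sperp_sperp (W : Submodule F (ι → F)) : (sform hf).orthogonal ((sform hf).orthogonal W) = W :=
  LinearMap.BilinForm.orthogonal_orthogonal (sform_nondeg hf) (sform_refl hf) W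

omit [DecidableEq ι] in
lemma mem_sperp_pair {u v x : ι → F} :
    x ∈ (sform hf).orthogonal (Submodule.span F {u} ⊔ Submodule.span F {v}) ↔
      sform hf u x = 0 ∧ sform hf v x = 0 := by
  constructor
  · exact fun h => ⟨h u (Submodule.mem_sup_left (Submodule.mem_span_singleton_self u)),
      h v (Submodule.mem_sup_right (Submodule.mem_span_singleton_self v))⟩
  · rintro ⟨h1, h2⟩ w hw
    obtain ⟨_, hp, _, hq, rfl⟩ := Submodule.mem_sup.1 hw
    obtain ⟨r, rfl⟩ := Submodule.mem_span_singleton.1 hp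
    obtain ⟨s, rfl⟩ := Submodule.mem_span_singleton.1 hq
    simp [LinearMap.map_add, LinearMap.add_apply, h1, h2]

omit [DecidableEq ι] in
/-- A vector of `S` orthogonal to `T` and pairing to one with `v`. -/
lemma exists_sform_one {S T : Submodule F (ι → F)} {v : ι → F} (h : v ∉ T ⊔ (sform hf).orthogonal S) :
    ∃ y ∈ S, y ∈ (sform hf).orthogonal T ∧ sform hf v y = 1 := by
  obtain ⟨y, ⟨hyS, hyT⟩, hy⟩ : ∃ y ∈ S ⊓ (sform hf).orthogonal T, sform hf v y ≠ 0 := by
    by_contra hc
    push Not at hc
    apply h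
    rw [← sperp_sperp hf (T ⊔ (sform hf).orthogonal S)]
    intro y hy
    refine sform_comm_zero hf (hc y ⟨?_, fun w hw => hy w (Submodule.mem_sup_left hw)⟩)
    rw [← sperp_sperp hf S]
    exact fun w hw => hy w (Submodule.mem_sup_right hw)
  refine ⟨(sform hf v y)⁻¹ • y, S.smul_mem _ hyS, Submodule.smul_mem _ _ hyT, ?_⟩
  rw [map_smul, smul_eq_mul, inv_mul_cancel₀ hy]

lemma tv_mulVec (v : ι → F) (c : F) (x : ι → F) :
    (sympT hf v c : Matrix ι ι F) *ᵥ x = x + (c * sform hf x v) • v := sympT_mulVec hf v c x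

/-- The rank two root element of an orthogonal pair. -/
noncomputable def biT (a b : ι → F) : GL ι F :=
  sympT hf (a + b) 1 * sympT hf a (-1) * sympT hf b (-1)

lemma biT_mulVec {a b : ι → F} (h : sform hf a b = 0) (x : ι → F) :
    (biT hf a b : Matrix ι ι F) *ᵥ x = x + sform hf x a • b + sform hf x b • a := by
  rw [biT, Units.val_mul, Units.val_mul, ← Matrix.mulVec_mulVec, ← Matrix.mulVec_mulVec, tv_mulVec hf,
    tv_mulVec hf, tv_mulVec hf]
  have h' := sform_comm_zero hf h
  simp only [map_add, map_smul, LinearMap.add_apply, LinearMap.smul_apply, smul_eq_mul, h, h', sform_self hf]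
  module

lemma biT_preserves (a b x y : ι → F) :
    f ((biT hf a b : Matrix ι ι F) *ᵥ x) ((biT hf a b : Matrix ι ι F) *ᵥ y) = f x y := by
  rw [biT, Units.val_mul, Units.val_mul]
  simp only [← Matrix.mulVec_mulVec, sympT_preserves hf]

lemma biT_comm {a b : ι → F} (h : sform hf a b = 0) : biT hf a b = biT hf b a :=
  ext_mulVec fun x => by rw [biT_mulVec hf h, biT_mulVec hf (sform_comm_zero hf h), add_right_comm]

lemma biT_mul {a a' b : ι → F} (h : sform hf b a = 0) (h' : sform hf b a' = 0) :
    biT hf b a * biT hf b a' = biT hf b (a + a') * sympT hf b (sform hf a' a) := by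
  refine ext_mulVec fun x => ?_
  have hs : sform hf b (a + a') = 0 := by rw [map_add, h, h', add_zero]
  rw [Units.val_mul, ← Matrix.mulVec_mulVec, biT_mulVec hf h', biT_mulVec hf h, Units.val_mul,
    ← Matrix.mulVec_mulVec, tv_mulVec hf, biT_mulVec hf hs]
  simp only [map_add, map_smul, LinearMap.add_apply, LinearMap.smul_apply, smul_eq_mul, h, h', hs,
    sform_comm_zero hf h', sform_comm_zero hf h, sform_self hf]
  module

lemma biT_self_smul {a b : ι → F} (h : sform hf b a = 0) (k : F) :
    biT hf b (a + k • b) = biT hf b a * sympT hf b (2 * k) := by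
  refine ext_mulVec fun x => ?_
  have hs : sform hf b (a + k • b) = 0 := by rw [map_add, map_smul, h, sform_self hf, smul_zero, add_zero]
  rw [biT_mulVec hf hs, Units.val_mul, ← Matrix.mulVec_mulVec, tv_mulVec hf, biT_mulVec hf h]
  simp only [map_add, map_smul, LinearMap.add_apply, LinearMap.smul_apply, smul_eq_mul, h, sform_self hf]
  module

lemma conj_biT {g : GL ι F} (hg : ∀ x y, f ((g : Matrix ι ι F) *ᵥ x) ((g : Matrix ι ι F) *ᵥ y) = f x y)
    {a b : ι → F} (h : sform hf a b = 0) :
    g * biT hf a b * g⁻¹ = biT hf ((g : Matrix ι ι F) *ᵥ a) ((g : Matrix ι ι F) *ᵥ b) := by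
  refine ext_mulVec fun x => ?_
  have h' : sform hf ((g : Matrix ι ι F) *ᵥ a) ((g : Matrix ι ι F) *ᵥ b) = 0 := (hg a b).trans h
  obtain ⟨y, rfl⟩ : ∃ y, x = (g : Matrix ι ι F) *ᵥ y := ⟨_, (mulVec_inv_mulVec g x).symm⟩
  rw [Units.val_mul, Units.val_mul, ← Matrix.mulVec_mulVec, ← Matrix.mulVec_mulVec, inv_mulVec_mulVec,
    biT_mulVec hf h, biT_mulVec hf h']
  simp only [Matrix.mulVec_add, Matrix.mulVec_smul, sform_apply, hg]

lemma conj_sympT {g : GL ι F} (hg : ∀ x y, f ((g : Matrix ι ι F) *ᵥ x) ((g : Matrix ι ι F) *ᵥ y) = f x y)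
    (v : ι → F) (c : F) : g * sympT hf v c * g⁻¹ = sympT hf ((g : Matrix ι ι F) *ᵥ v) c := by
  refine ext_mulVec fun x => ?_
  obtain ⟨y, rfl⟩ : ∃ y, x = (g : Matrix ι ι F) *ᵥ y := ⟨_, (mulVec_inv_mulVec g x).symm⟩
  rw [Units.val_mul, Units.val_mul, ← Matrix.mulVec_mulVec, ← Matrix.mulVec_mulVec, inv_mulVec_mulVec,
    sympT_mulVec, sympT_mulVec, Matrix.mulVec_add, Matrix.mulVec_smul, hg]

lemma sympT_smul (v : ι → F) (s c : F) : sympT hf (s • v) c = sympT hf v (c * s ^ 2) := by
  refine ext_mulVec fun x => ?_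
  rw [tv_mulVec hf, tv_mulVec hf, map_smul, smul_eq_mul, smul_smul]
  congr 2
  ring

lemma sympT_mul (v : ι → F) (c c' : F) : sympT hf v c * sympT hf v c' = sympT hf v (c + c') := by
  refine ext_mulVec fun x => ?_
  rw [Units.val_mul, ← Matrix.mulVec_mulVec, tv_mulVec hf, tv_mulVec hf, tv_mulVec hf]
  simp only [map_add, map_smul, LinearMap.add_apply, LinearMap.smul_apply, smul_eq_mul, sform_self hf]
  module

lemma sympT_inv (v : ι → F) (c : F) : (sympT hf v c)⁻¹ = sympT hf v (-c) := by
  refine inv_eq_of_mul_eq_one_right ?_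
  rw [sympT_mul hf, add_neg_cancel]
  exact ext_mulVec fun x => by rw [tv_mulVec hf]; simp

/-- Polarisation: transvections at three orthogonal collinear translates. -/
lemma sympT_polar (v c : ι → F) (h : sform hf v c = 0) (k : F) :
    sympT hf (v + c) k * sympT hf (v - c) k * sympT hf v (-2 * k) = sympT hf c (2 * k) := by
  refine ext_mulVec fun x => ?_
  rw [Units.val_mul, Units.val_mul, ← Matrix.mulVec_mulVec, ← Matrix.mulVec_mulVec, tv_mulVec hf,
    tv_mulVec hf, tv_mulVec hf, tv_mulVec hf]
  simp only [map_add, map_sub, map_smul, LinearMap.add_apply, LinearMap.sub_apply, LinearMap.smul_apply,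
    smul_eq_mul, h, sform_comm_zero hf h, sform_self hf]
  module

end CfsgLib.SympGeo
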